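import Cfsg.Agent.Lib.Classical.QuadOmega.Apply
import Cfsg.Agent.Lib.Classical.QuadOmega.Disc
import Cfsg.Agent.Lib.Zsigmondy

/-!
No element of order `p (q^k + 1)` in `Ω_{2k+3}(q)`, `q` odd.
-/

set_option autoImplicit false

namespace Cfsg.Agent.Lib.GS.OrthPN

open QuadraticMap Polynomial Cfsg.Agent.Lib.Classical.Quad Cfsg.Agent.Lib.Classical.QuadOmega

attribute [local instance] _root_.Classical.propDecidable

/-- The sign of a permutation all of whose non-trivial cycles have the same even length. -/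
theorem sign_semiregular {X : Type*} {_ : Fintype X} {_ : DecidableEq X} (σ : Equiv.Perm X) {N : ℕ} (hN : Even N)
    (h : ∀ j : ℕ, ∀ x, σ x ≠ x → ((σ ^ j) x = x ↔ N ∣ j)) :
    Equiv.Perm.sign σ = (-1) ^ (Nat.card {x // σ x ≠ x} / N) := by
  have hc : ∀ l ∈ σ.cycleType, l = N := by
    intro l hl
    rw [Equiv.Perm.cycleType_def, Multiset.mem_map] at hl
    obtain ⟨c, hc, rfl⟩ := hl
    obtain ⟨hcyc, hcs⟩ := Equiv.Perm.mem_cycleFactorsFinset_iff.1 hc
    obtain ⟨x, hx⟩ : c.support.Nonempty := Finset.nonempty_iff_ne_empty.2 fun e =>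
      hcyc.ne_one (Equiv.Perm.support_eq_empty_iff.1 e)
    have hpow : ∀ (j : ℕ), (c ^ j) x = (σ ^ j) x := by
      intro j
      induction j with
      | zero => simp
      | succ j ih =>
        rw [pow_succ', pow_succ', Equiv.Perm.mul_apply, Equiv.Perm.mul_apply, ← ih]
        exact hcs _ (Equiv.Perm.pow_apply_mem_support.2 hx)
    have hσx : σ x ≠ x := fun e => (Equiv.Perm.mem_support.1 hx) (by rw [hcs x hx, e])
    show c.support.card = N
    rw [← hcyc.orderOf]
    refine Nat.dvd_antisymm (orderOf_dvd_of_pow_eq_one ((hcyc.pow_eq_one_iff' (Equiv.Perm.mem_support.1 hx)).2 ?_)) ?_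
    · rw [hpow, h _ _ hσx]
    · rw [← h _ _ hσx, ← hpow, pow_orderOf_eq_one, Equiv.Perm.one_apply]
  rw [Equiv.Perm.sign_of_cycleType, Multiset.eq_replicate_card.2 hc]
  have hs : σ.cycleType.card * N = Nat.card {x // σ x ≠ x} := by
    have := σ.sum_cycleType
    rw [Multiset.eq_replicate_card.2 hc, Multiset.sum_replicate, smul_eq_mul] at this
    rw [this, Nat.card_eq_fintype_card, Fintype.card_subtype]
    congr 1
  rw [Multiset.sum_replicate, Multiset.card_replicate, smul_eq_mul, pow_add,
    (hN.mul_left _).neg_one_pow, one_mul]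
  rcases Nat.eq_zero_or_pos N with rfl | hN0
  · have : σ.cycleType.card = 0 := by
      by_contra hne
      obtain ⟨l, hl⟩ := Multiset.card_pos_iff_exists_mem.1 (Nat.pos_of_ne_zero hne)
      have := Equiv.Perm.two_le_of_mem_cycleType hl
      rw [hc l hl] at this; omega
    simp [this]
  rw [← hs, Nat.mul_div_cancel _ hN0]

/-- An element acting without fixed points on a space of order `q^m`, of prime order `r`. -/
theorem modEq_one {X : Type*} [Finite X] (σ : Equiv.Perm X) (r : ℕ) [Fact r.Prime] (hσ : σ ^ r = 1) (x₀ : X)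
    (h : ∀ x, σ x = x ↔ x = x₀) : Nat.card X ≡ 1 [MOD r] := by
  have := Fintype.ofFinite X
  have hm := Equiv.Perm.card_compl_support_modEq (p := r) (n := 1) (σ := σ) (by rwa [pow_one])
  have hs : σ.supportᶜ = {x₀} := by
    ext x
    simp [h]
  rw [hs, Finset.card_singleton] at hm
  rw [Nat.card_eq_fintype_card]
  exact hm.symm

theorem dvd_of_modEq {q r m d : ℕ} (hd : q ^ d ≡ 1 [MOD r])
    (hmin : ∀ i, 0 < i → i < d → ¬ q ^ i ≡ 1 [MOD r]) (hd0 : 0 < d) (hm : q ^ m ≡ 1 [MOD r]) : d ∣ m := by
  rw [Nat.dvd_iff_mod_eq_zero]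
  by_contra hne
  refine hmin (m % d) (Nat.pos_of_ne_zero hne) (Nat.mod_lt _ hd0) ?_
  have h1 : (q ^ d) ^ (m / d) * q ^ (m % d) ≡ 1 ^ (m / d) * q ^ (m % d) [MOD r] := (hd.pow _).mul_right _
  rw [← pow_mul, ← pow_add, Nat.div_add_mod, one_pow, one_mul] at h1
  exact h1.symm.trans hm

variable {F : Type*} [Field F] [Fintype F] {V : Type*} [AddCommGroup V] [Module F V] [Finite V]
  {Q : QuadraticForm F V}

/-- The data of a decomposition for an element `g`. -/
structure Split (Q : QuadraticForm F V) (g : isoG Q) (W U : Submodule F V) : Prop where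
  compl : IsCompl W U
  orth : ∀ x ∈ W, ∀ y ∈ U, polar Q x y = 0
  mapsW : ∀ x ∈ W, g.1 x ∈ W
  mapsU : ∀ x ∈ U, g.1 x ∈ U

theorem pow_mapsTo {g : isoG Q} {W : Submodule F V} (h : ∀ x ∈ W, g.1 x ∈ W) (j : ℕ) :
    ∀ x ∈ W, (g ^ j).1 x ∈ W := by
  induction j with
  | zero => intro x hx; simpa using hx
  | succ j ih =>
    intro x hx
    rw [pow_succ', Subgroup.coe_mul, LinearEquiv.mul_apply]
    exact h _ (ih x hx)

/-- The restriction as an endomorphism. -/
noncomputable def res (g : isoG Q) (W : Submodule F V) (h : ∀ x ∈ W, g.1 x ∈ W) : Module.End F W :=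
  (g.1 : V →ₗ[F] V).restrict h

omit [Fintype F] [Finite V] in
theorem res_apply (g : isoG Q) (W : Submodule F V) (h : ∀ x ∈ W, g.1 x ∈ W) (x : W) :
    ((res g W h x : W) : V) = g.1 x := rfl

theorem res_pow_apply (g : isoG Q) (W : Submodule F V) (h : ∀ x ∈ W, g.1 x ∈ W) (j : ℕ) (x : W) :
    (((res g W h ^ j) x : W) : V) = (g ^ j).1 x := by
  induction j with
  | zero => simp
  | succ j ih =>
    rw [pow_succ', pow_succ', Module.End.mul_apply, res_apply, ih, Subgroup.coe_mul, LinearEquiv.mul_apply]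

/-- The three dimensional part: if `g` commutes with a non-trivial unipotent isometry, `g ^ p = ± 1` there. -/
theorem three_dim {U : Type*} [AddCommGroup U] [Module F U] [Finite U] {R : QuadraticForm F U} (hR : Nd R)
    (h2 : (2 : F) ≠ 0) (hU : Module.finrank F U = 3) (p : ℕ) [Fact p.Prime] [CharP F p] (hp : 3 ≤ p)
    (b u : Module.End F U) (hb : ∀ x, R (b x) = R x) (hu : ∀ x, R (u x) = R x)
    (hcomm : Commute b u) (hup : u ^ p = 1) (hu1 : u ≠ 1) :
    b ^ p = 1 ∨ b ^ p = -1 := by
  have := Module.Finite.of_finite (R := F) (M := U)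
  have : Nontrivial U := Module.nontrivial_of_finrank_pos (R := F) (by omega)
  have : CharP (Module.End F U) p := charP_of_injective_algebraMap (algebraMap F _).injective p
  set n := u - 1 with hn
  have hn0 : n ≠ 0 := sub_ne_zero.2 hu1
  have hnp : n ^ p = 0 := by
    rw [hn, sub_pow_char_of_commute p (Commute.one_right u), hup, one_pow, sub_self]
  have hn3 : n ^ 3 = 0 := by
    have h1 : minpoly F n ∣ X ^ p := minpoly.dvd F n (by simp [hnp])
    obtain ⟨j, -, hj⟩ := (dvd_prime_pow Polynomial.prime_X p).1 h1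
    have hm : minpoly F n = X ^ j := eq_of_monic_of_associated (minpoly.monic (Algebra.IsIntegral.isIntegral n))
      (monic_X_pow j) hj
    have hle : (minpoly F n).natDegree ≤ 3 := by
      rw [← hU, ← LinearMap.charpoly_natDegree n]
      exact natDegree_le_of_dvd (LinearMap.minpoly_dvd_charpoly n) (LinearMap.charpoly_monic n).ne_zero
    rw [hm, natDegree_X_pow] at hle
    have := minpoly.aeval F n
    rw [hm, map_pow, aeval_X] at this
    rw [← Nat.sub_add_cancel hle, pow_add, this, mul_zero]
  have hbil : ∀ (f : Module.End F U), (∀ x, R (f x) = R x) → ∀ x y, polar R (f x) (f y) = polar R x y := by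
    intro f hf x y
    simp only [polar, ← map_add, hf]
  have hn2 : n ^ 2 ≠ 0 := by
    intro h0
    have hnn : ∀ x, n (n x) = 0 := fun x => by
      have := LinearMap.congr_fun h0 x
      rwa [pow_two] at this
    have huv : ∀ x, u x = x + n x := fun x => by simp [hn]
    have hid : ∀ x y, polar R (n x) y + polar R x (n y) + polar R (n x) (n y) = 0 := fun x y => by
      have := hbil u hu x y
      rw [huv, huv, polar_add_left, polar_add_right, polar_add_right] at this
      linear_combination this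
    have hiso : ∀ x y, polar R (n x) (n y) = 0 := fun x y => by
      have := hid (n x) y
      rw [hnn] at this
      simpa using this
    have hdiag : ∀ x, polar R (n x) x = 0 := fun x => by
      have := hid x x
      rw [hiso, polar_comm R x (n x), add_zero, ← two_mul] at this
      exact (mul_eq_zero.1 this).resolve_left h2
    have hrk := hR.two_mul_finrank_le (LinearMap.range n) (by
      rintro _ ⟨x, rfl⟩ _ ⟨y, rfl⟩
      exact hiso x y)
    obtain ⟨x, hx⟩ : ∃ x, n x ≠ 0 := by
      by_contra! h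
      exact hn0 (LinearMap.ext h)
    obtain ⟨y, hy⟩ := hR.exists_one hx
    have hle : LinearMap.range n ≤ F ∙ n x := by
      refine (Submodule.eq_of_le_of_finrank_le ?_ ?_).ge
      · rw [Submodule.span_singleton_le_iff_mem]; exact ⟨x, rfl⟩
      · rw [finrank_span_singleton hx]; omega
    obtain ⟨c, hc⟩ := Submodule.mem_span_singleton.1 (hle ⟨y, rfl⟩)
    have h1 := hid x y
    rw [hiso, hy, polar_comm R x (n y), ← hc, polar_smul_left, hdiag, smul_zero, add_zero, add_zero] at h1
    exact one_ne_zero h1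
  obtain ⟨v, hv⟩ : ∃ v, (n ^ 2) v ≠ 0 := by
    by_contra! h
    exact hn2 (LinearMap.ext h)
  have hnnn : ∀ x, n (n (n x)) = 0 := fun x => by
    have := LinearMap.congr_fun hn3 x
    rwa [pow_succ, pow_two] at this
  have hli : LinearIndependent F ![v, n v, n (n v)] := by
    rw [Fintype.linearIndependent_iff]
    intro c hc
    have hv' : n (n v) ≠ 0 := by simpa [pow_two] using hv
    simp only [Fin.sum_univ_three, Matrix.cons_val_zero, Matrix.cons_val_one, Matrix.cons_val] at hc
    have h0 : c 0 = 0 := by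
      have := congrArg (fun x => n (n x)) hc
      simp only [map_add, map_smul, hnnn, map_zero, smul_zero, add_zero, smul_eq_zero] at this
      exact this.resolve_right hv'
    have h1 : c 1 = 0 := by
      have := congrArg (fun x => n x) hc
      simp only [map_add, map_smul, hnnn, h0, map_zero, zero_smul, smul_zero, add_zero, zero_add, smul_eq_zero] at this
      exact this.resolve_right hv'
    have h2' : c 2 = 0 := by
      rw [h0, h1, zero_smul, zero_smul, zero_add, zero_add, smul_eq_zero] at hc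
      exact hc.resolve_right hv'
    intro i; fin_cases i <;> assumption
  let bas : Module.Basis (Fin 3) F U := basisOfLinearIndependentOfCardEqFinrank hli (by simp [hU])
  set c := bas.repr (b v) with hc
  set z : Module.End F U := c 1 • 1 + c 2 • n with hz
  have hbn : Commute b n := by rw [hn]; exact hcomm.sub_right (Commute.one_right b)
  have hbv : b v = c 0 • v + n (z v) := by
    conv_lhs => rw [← bas.sum_repr (b v)]
    simp [bas, Fin.sum_univ_three, hz, ← hc, coe_basisOfLinearIndependentOfCardEqFinrank, add_assoc]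
  have hb' : b = c 0 • 1 + n * z := by
    have hT : Commute (c 0 • (1 : Module.End F U) + n * z) n := by
      refine ((Commute.one_left n).smul_left _).add_left ((Commute.refl n).mul_left ?_)
      exact ((Commute.one_left n).smul_left _).add_left ((Commute.refl n).smul_left _)
    have hv0 : b v = (c 0 • (1 : Module.End F U) + n * z) v := by simpa using hbv
    have hstep : ∀ w, b w = (c 0 • (1 : Module.End F U) + n * z) w →
        b (n w) = (c 0 • (1 : Module.End F U) + n * z) (n w) := fun w hw => by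
      rw [← Module.End.mul_apply b n, hbn.eq, Module.End.mul_apply, hw, ← Module.End.mul_apply,
        ← hT.eq, Module.End.mul_apply]
    refine bas.ext fun i => ?_
    fin_cases i
    · simpa [bas] using hv0
    · simpa [bas] using hstep _ hv0
    · simpa [bas] using hstep _ (hstep _ hv0)
  have hbp : b ^ p = c 0 ^ p • 1 := by
    have h1 : Commute (c 0 • (1 : Module.End F U)) (n * z) := (Commute.one_left _).smul_left _
    have h2' : Commute n z :=
      ((Commute.one_right n).smul_right _).add_right ((Commute.refl n).smul_right _)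
    rw [hb', add_pow_char_of_commute p h1, h2'.mul_pow, hnp, zero_mul, add_zero, _root_.smul_pow, one_pow]
  have hiso' : ∀ (j : ℕ) x, R ((b ^ j) x) = R x := by
    intro j
    induction j with
    | zero => simp
    | succ j ih => intro x; rw [pow_succ', Module.End.mul_apply, hb, ih]
  obtain ⟨w, hw⟩ := hR.exists_nonsing
  have := hiso' p w
  rw [hbp, LinearMap.smul_apply, Module.End.one_apply, QuadraticMap.map_smul, smul_eq_mul] at this
  have hsq : c 0 ^ p * c 0 ^ p = 1 := mul_right_cancel₀ hw (by rw [this, one_mul])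
  rcases mul_self_eq_one_iff.1 hsq with h | h <;> rw [hbp, h]
  · exact Or.inl (one_smul _ _)
  · exact Or.inr (by rw [neg_smul, one_smul])

/-- The irreducible part: a field acting on it and the number of vectors of norm one. -/
theorem irreducible_part {W : Type*} [AddCommGroup W] [Module F W] [Finite W] {R : QuadraticForm F W} (hR : Nd R)
    (h2 : (2 : F) ≠ 0) (k r e : ℕ) (hk : 1 ≤ k) [Fact r.Prime] (hr2 : r ≠ 2) (hW : Module.finrank F W = 2 * k)
    (hr : Fintype.card F ^ (2 * k) ≡ 1 [MOD r])
    (hmin : ∀ i, 0 < i → i < 2 * k → ¬ Fintype.card F ^ i ≡ 1 [MOD r])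
    (a a' : Module.End F W) (haa : a * a' = 1) (ha : ∀ x, R (a x) = R x)
    (hh : (a ^ e) ^ r = 1) (hfree : ∀ x, (a ^ e) x = x → x = 0) :
    a ^ (Fintype.card F ^ k + 1) = 1 ∧
      (∀ j, a ^ j ≠ 1 → ∀ x, (a ^ j) x = x → x = 0) ∧
      ∀ c : F, ∃ s, Nat.card {w : W // R w = c ∧ w ≠ 0} = (Fintype.card F ^ k + 1) * s ∧
        (c ≠ 0 → Odd s) := by
  set q := Fintype.card F with hq
  have hq1 : 1 < q := Fintype.one_lt_card
  have hqodd : Odd q := odd_card_of_two_ne_zero h2
  have := Module.Finite.of_finite (R := F) (M := W)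
  have : Nontrivial W := Module.nontrivial_of_finrank_pos (R := F) (by omega)
  have hbil : ∀ x y, polar R (a x) (a y) = polar R x y := fun x y => by
    simp only [polar, ← map_add, ha]
  have hinv : ∀ S : Submodule F W, (∀ x ∈ S, a x ∈ S) → S = ⊥ ∨ S = ⊤ := by
    intro S hS
    have hSe : ∀ x ∈ S, (a ^ e) x ∈ S := Module.End.pow_apply_mem_of_forall_mem e hS
    let f : Module.End F S := (a ^ e).restrict hSe
    have hfr : ∀ (j : ℕ) (x : S), ((f ^ j) x : W) = ((a ^ e) ^ j) x := fun j x => by
      rw [Module.End.pow_restrict, LinearMap.restrict_coe_apply]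
    let σ : Equiv.Perm S := Equiv.ofBijective f (Finite.injective_iff_bijective.1 ((injective_iff_map_eq_zero f).2
      fun x hx => Subtype.ext (by
        have : (a ^ e) (x : W) = 0 := congrArg Subtype.val hx
        have h' : ((a ^ e) ^ r) (x : W) = 0 := by
          rw [← Nat.sub_add_cancel (Fact.out : r.Prime).one_le, pow_succ, Module.End.mul_apply, this, map_zero]
        simpa [hh] using h')))
    have hσ : σ ^ r = 1 := Equiv.ext fun x => Subtype.ext (by
      have : ∀ j : ℕ, (σ ^ j) x = (f ^ j) x := fun j => by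
        induction j with
        | zero => simp
        | succ j ih => rw [pow_succ', pow_succ', Equiv.Perm.mul_apply, Module.End.mul_apply, ih]; rfl
      rw [this, hfr, hh]; rfl)
    have hm := modEq_one σ r hσ 0 fun x => ⟨fun h => Subtype.ext (hfree _ (congrArg Subtype.val h)), fun h => by
      subst h; exact map_zero f⟩
    rw [Module.natCard_eq_pow_finrank (K := F), Nat.card_eq_fintype_card, ← hq] at hm
    have hd := dvd_of_modEq hr hmin (by omega) hm
    have hle := Submodule.finrank_le S
    rw [hW] at hle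
    rcases Nat.eq_zero_or_pos (Module.finrank F S) with h0 | h0
    · exact Or.inl (Submodule.finrank_eq_zero.1 h0)
    · exact Or.inr (Submodule.eq_top_of_finrank_eq (by have := Nat.le_of_dvd h0 hd; omega))
  set μ := minpoly F a with hμ
  have hint : IsIntegral F a := Algebra.IsIntegral.isIntegral a
  have hμirr : Irreducible μ := by
    refine ⟨minpoly.not_isUnit F a, fun f g hfg => ?_⟩
    by_contra! hcon
    have hμ0 : f * g ≠ 0 := by rw [← hfg]; exact minpoly.ne_zero hint
    have hf0 : f ≠ 0 := left_ne_zero_of_mul hμ0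
    have hg0 : g ≠ 0 := right_ne_zero_of_mul hμ0
    have hfd : 0 < f.natDegree := Nat.pos_of_ne_zero fun h => hcon.1 (isUnit_iff_degree_eq_zero.2 (by
      rw [degree_eq_natDegree hf0, h]; rfl))
    have hgd : 0 < g.natDegree := Nat.pos_of_ne_zero fun h => hcon.2 (isUnit_iff_degree_eq_zero.2 (by
      rw [degree_eq_natDegree hg0, h]; rfl))
    have hdeg : μ.natDegree = f.natDegree + g.natDegree := by rw [hfg, natDegree_mul hf0 hg0]
    have h0 : aeval a f * aeval a g = 0 := by rw [← map_mul, ← hfg, minpoly.aeval]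
    have hker : ∀ x ∈ LinearMap.ker (aeval a f), a x ∈ LinearMap.ker (aeval a f) := by
      intro x hx
      have hc : Commute (aeval a f) a := by
        conv_rhs => rw [← aeval_X (R := F) a]
        exact (Commute.all f X).map _
      rw [LinearMap.mem_ker] at hx ⊢
      rw [← Module.End.mul_apply, hc.eq, Module.End.mul_apply, hx, map_zero]
    rcases hinv _ hker with hb | ht
    · have : aeval a g = 0 := LinearMap.ext fun x => LinearMap.ker_eq_bot.1 hb (by
        rw [← Module.End.mul_apply, h0]; simp)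
      have := natDegree_le_of_dvd (minpoly.dvd F a this) hg0
      change μ.natDegree ≤ _ at this
      omega
    · have : aeval a f = 0 := LinearMap.ext fun x => by
        simpa using (ht ▸ Submodule.mem_top : x ∈ LinearMap.ker (aeval a f))
      have := natDegree_le_of_dvd (minpoly.dvd F a this) hf0
      change μ.natDegree ≤ _ at this
      omega
  have : Fact (Irreducible μ) := ⟨hμirr⟩
  let K := AdjoinRoot μ
  let φ : K →ₐ[F] Module.End F W := Ideal.Quotient.liftₐ (Ideal.span {μ}) (Polynomial.aeval a) (by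
    intro f hf
    obtain ⟨g, rfl⟩ := Ideal.mem_span_singleton.1 hf
    rw [map_mul, minpoly.aeval, zero_mul])
  set α : K := AdjoinRoot.root μ
  have hφα : φ α = a := aeval_X a
  have hφi : Function.Injective φ := (φ : K →+* Module.End F W).injective
  let pb := AdjoinRoot.powerBasis (f := μ) hμirr.ne_zero
  have : Module.Finite F K := pb.finite
  have : Finite K := Module.finite_of_finite F
  have hdim : Module.finrank F K = μ.natDegree := by
    rw [pb.finrank, AdjoinRoot.powerBasis_dim]
  set η := α ^ e with hη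
  have hηr : η ^ r = 1 := hφi (by rw [map_pow, map_pow, hφα, hh, map_one])
  have hη1 : η ≠ 1 := fun h => by
    obtain ⟨x, hx⟩ := exists_ne (0 : W)
    exact hx (hfree x (by rw [← hφα, ← map_pow, ← hη, h, map_one]; rfl))
  have hηo : orderOf η = r := orderOf_eq_prime hηr hη1
  have hη0 : η ≠ 0 := fun h => by
    rw [h, zero_pow (Fact.out : r.Prime).ne_zero] at hηr; exact zero_ne_one hηr
  have hcardK : Nat.card K = q ^ μ.natDegree := by
    rw [Module.natCard_eq_pow_finrank (K := F), hdim, Nat.card_eq_fintype_card]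
  have hd : μ.natDegree = 2 * k := by
    have hdvd : r ∣ q ^ μ.natDegree - 1 := by
      have : Fintype K := Fintype.ofFinite K
      rw [← hcardK, Nat.card_eq_fintype_card, ← hηo]
      exact orderOf_dvd_of_pow_eq_one (FiniteField.pow_card_sub_one_eq_one η hη0)
    have h1 := dvd_of_modEq hr hmin (by omega) ((Nat.modEq_iff_dvd' (Nat.one_le_pow _ _ (by omega))).2 hdvd).symm
    have h2' := natDegree_le_of_dvd (LinearMap.minpoly_dvd_charpoly a) (LinearMap.charpoly_monic a).ne_zero
    rw [← hμ, LinearMap.charpoly_natDegree, hW] at h2'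
    have := hμirr.natDegree_pos
    have := Nat.le_of_dvd this h1
    omega
  -- adjoints
  have haa' : a' * a = 1 := mul_eq_one_comm.1 haa
  have hadj1 : ∀ x y, polar R (a' x) y = polar R x (a y) := fun x y => by
    rw [← hbil (a' x) y, ← Module.End.mul_apply, haa]; simp
  have hadj : ∀ (f : F[X]) x y, polar R (aeval a' f x) y = polar R x (aeval a f y) := by
    intro f
    induction f using Polynomial.induction_on' with
    | add f g hf hg => intro x y; simp [polar_add_left, polar_add_right, hf, hg]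
    | monomial n c =>
      intro x y
      simp only [aeval_monomial, Algebra.algebraMap_eq_smul_one, smul_mul_assoc, one_mul,
        LinearMap.smul_apply, polar_smul_left, polar_smul_right]
      congr 1
      induction n generalizing x y with
      | zero => simp
      | succ n ih => rw [pow_succ, pow_succ', Module.End.mul_apply, Module.End.mul_apply, ih, hadj1]
  have hμa' : aeval a' μ = 0 := LinearMap.ext fun x => hR _ fun y => by
    rw [hadj, minpoly.aeval]; simp
  have hα0 : α ≠ 0 := fun h => by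
    have : a = 0 := by rw [← hφα, h, map_zero]
    rw [this, zero_mul] at haa
    exact zero_ne_one haa
  have hφinv : φ α⁻¹ = a' := by
    have : a * φ α⁻¹ = 1 := by rw [← hφα, ← map_mul, mul_inv_cancel₀ hα0, map_one]
    calc φ α⁻¹ = a' * a * φ α⁻¹ := by rw [haa', one_mul]
      _ = a' := by rw [mul_assoc, this, mul_one]
  have hroot : aeval α⁻¹ μ = 0 := hφi (by rw [← aeval_algHom_apply, hφinv, hμa', map_zero])
  let σ₀ : K →ₐ[F] K := AdjoinRoot.liftAlgHom μ (Algebra.ofId F _) α⁻¹ (by exact hroot)
  let σ : Gal(K/F) := AlgEquiv.ofBijective σ₀ (Finite.injective_iff_bijective.1 σ₀.toRingHom.injective)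
  have : Fintype K := Fintype.ofFinite K
  obtain ⟨⟨i, hi⟩, hiσ⟩ := (FiniteField.bijective_frobeniusAlgEquivOfAlgebraic_pow F K).2 σ
  rw [hdim, hd] at hi
  have hfrob : ∀ j : ℕ, ∀ x : K, (FiniteField.frobeniusAlgEquivOfAlgebraic F K ^ j) x = x ^ q ^ j := by
    intro j
    induction j with
    | zero => simp
    | succ j ih =>
      intro x
      rw [pow_succ', AlgEquiv.mul_apply, ih]
      simp [pow_succ, pow_mul, hq]
  have hσα : α⁻¹ = α ^ q ^ i := by
    rw [← hfrob, show (FiniteField.frobeniusAlgEquivOfAlgebraic F K ^ i) = σ from hiσ]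
    exact (AdjoinRoot.liftAlgHom_root μ (Algebra.ofId F K) α⁻¹ hroot).symm
  have hriq : r ∣ q ^ i + 1 := by
    rw [← hηo]
    refine orderOf_dvd_of_pow_eq_one ?_
    rw [hη, ← pow_mul, mul_comm, pow_mul, pow_succ, ← hσα, inv_mul_cancel₀ hα0, one_pow]
  have hik : i = k := by
    rcases Nat.eq_zero_or_pos i with rfl | hi0
    · exact absurd ((Nat.prime_dvd_prime_iff_eq Fact.out Nat.prime_two).1 (by simpa using hriq)) hr2
    have h1 : q ^ (2 * i) ≡ 1 [MOD r] := by
      rw [← ZMod.natCast_eq_natCast_iff]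
      have h0 : ((q : ZMod r)) ^ i = -1 := by
        rw [eq_neg_iff_add_eq_zero]
        have := (ZMod.natCast_eq_zero_iff _ r).2 hriq
        push_cast at this
        exact this
      push_cast
      rw [mul_comm, pow_mul, h0]
      simp
    obtain ⟨t, ht⟩ := dvd_of_modEq hr hmin (by omega) h1
    rcases t with _ | _ | t
    · omega
    · omega
    · rw [Nat.mul_add, Nat.mul_add] at ht; omega
  subst hik
  set N := q ^ i + 1 with hN
  have hαN : α ^ N = 1 := by rw [hN, pow_succ, ← hσα, inv_mul_cancel₀ hα0]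
  -- free action
  have hfreeK : ∀ l : K, l ≠ 0 → ∀ x : W, φ l x = 0 → x = 0 := fun l hl x hx => by
    have : φ l⁻¹ (φ l x) = x := by rw [← Module.End.mul_apply, ← map_mul, inv_mul_cancel₀ hl, map_one]; rfl
    rw [← this, hx, map_zero]
  refine ⟨by rw [← hφα, ← map_pow, hαN, map_one], fun j hj x hx => ?_, ?_⟩
  · refine hfreeK (α ^ j - 1) (sub_ne_zero.2 fun h => hj (by rw [← hφα, ← map_pow, h, map_one])) x ?_
    simp [hφα, hx]
  obtain ⟨w₀, hw₀⟩ := exists_ne (0 : W)
  let ev : K →ₗ[F] W := (LinearMap.applyₗ w₀).comp φ.toLinearMap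
  have hev : Function.Bijective ev := by
    have hinj : Function.Injective ev := (injective_iff_map_eq_zero ev).2 fun l hl => by
      by_contra h
      exact hw₀ (hfreeK l h w₀ hl)
    exact ⟨hinj, (LinearMap.injective_iff_surjective_of_finrank_eq_finrank (by rw [hdim, hd, hW])).1 hinj⟩
  -- adjoint of a scalar
  have hbar : ∀ (l : K) x y, polar R (φ l x) y = polar R x (φ (l ^ q ^ i) y) := by
    intro l x y
    obtain ⟨f, rfl⟩ := AdjoinRoot.mk_surjective l
    have e1 : φ (AdjoinRoot.mk μ f) = aeval a f := by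
      rw [← AdjoinRoot.aeval_eq, ← aeval_algHom_apply, hφα]
    have e2 : φ (AdjoinRoot.mk μ f ^ q ^ i) = aeval a' f := by
      rw [← AdjoinRoot.aeval_eq, ← hfrob, ← AlgEquiv.coe_toAlgHom, ← aeval_algHom_apply, ← aeval_algHom_apply,
        AlgEquiv.coe_toAlgHom, hfrob, ← hσα, hφinv]
    rw [e1, e2, polar_comm R x, hadj, polar_comm R y]
  let T : K →ₗ[F] F := ((polarBilin R w₀).comp ev)
  have hQev : ∀ l : K, 2 * R (ev l) = T (l ^ N) := fun l => by
    rw [show (2 : F) * R (ev l) = polar R (ev l) (ev l) by rw [polar_self, nsmul_eq_mul]; norm_num]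
    show polar R (φ l w₀) (φ l w₀) = polar R w₀ (φ (l ^ N) w₀)
    rw [hbar l w₀, ← Module.End.mul_apply, ← map_mul, hN, pow_succ]
  -- the fixed field
  let K₀ : Submodule F K :=
    { carrier := {y | y ^ q ^ i = y}
      zero_mem' := zero_pow (pow_ne_zero _ (by omega))
      add_mem' := fun {x y} hx hy => by
        show (x + y) ^ q ^ i = x + y
        rw [← hfrob, map_add, hfrob, hfrob, hx, hy]
      smul_mem' := fun c x hx => by
        show (c • x) ^ q ^ i = c • x
        rw [← hfrob, map_smul, hfrob, hx] }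
  have hqi : 1 < q ^ i := Nat.one_lt_pow (by omega) hq1
  have hmemK₀ : ∀ y : K, y ≠ 0 → (y ∈ K₀ ↔ y ^ (q ^ i - 1) = 1) := fun y hy => by
    show y ^ q ^ i = y ↔ _
    conv_lhs => rw [← Nat.sub_add_cancel hqi.le, pow_succ, mul_left_eq_self₀]
    simp [hy]
  have hU : Nat.card Kˣ = (q ^ i - 1) * N := by
    obtain ⟨t, ht⟩ : ∃ t, q ^ i = t + 1 := ⟨q ^ i - 1, by omega⟩
    rw [Nat.card_units, hcardK, hd, hN, two_mul, pow_add, ht, Nat.add_sub_cancel]
    refine Nat.sub_eq_of_eq_add ?_
    ring
  obtain ⟨γ, hγ⟩ := IsCyclic.exists_ofOrder_eq_natCard (α := Kˣ)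
  rw [hU] at hγ
  have hNpos : 0 < N := by omega
  let f : Kˣ →* Kˣ := powMonoidHom N
  have hfker : Nat.card f.ker = N := by
    rw [IsCyclic.card_powMonoidHom_ker, hU, Nat.gcd_mul_left_left]
  have hfrange : ∀ y : Kˣ, y ∈ f.range ↔ (y : K) ∈ K₀ := fun y => by
    rw [hmemK₀ _ y.ne_zero, ← Units.val_pow_eq_pow_val, Units.val_eq_one]
    constructor
    · rintro ⟨z, rfl⟩
      rw [powMonoidHom_apply, ← pow_mul, mul_comm, ← hU]
      exact pow_card_eq_one'
    · intro hy
      have hzm : y ∈ Subgroup.zpowers γ := by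
        rw [Subgroup.eq_top_of_card_eq (Subgroup.zpowers γ) (by rw [Nat.card_zpowers, hγ, hU])]
        exact Subgroup.mem_top _
      obtain ⟨m, rfl⟩ := (mem_powers_iff_mem_zpowers.2 hzm : y ∈ Submonoid.powers γ)
      simp only [← pow_mul] at hy
      have := orderOf_dvd_of_pow_eq_one hy
      rw [hγ, mul_comm m] at this
      obtain ⟨t, rfl⟩ := Nat.dvd_of_mul_dvd_mul_left (by omega) this
      exact ⟨γ ^ t, by rw [powMonoidHom_apply, ← pow_mul, mul_comm]⟩
  intro c
  refine ⟨Nat.card {y : K₀ // T (y : K) = 2 * c ∧ y ≠ 0}, ?_, fun hc => ?_⟩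
  · have hcov : ∀ P : Kˣ → Prop,
        Nat.card {x : Kˣ // P (f x)} = N * Nat.card {y : f.range // P y} := by
      intro P
      have h1 : ∀ y : {y : f.range // P y}, Nat.card {x : Kˣ // f x = (y.1 : Kˣ)} = N := by
        rintro ⟨⟨_, x₀, rfl⟩, -⟩
        refine Eq.trans (Nat.card_congr ((Equiv.mulLeft x₀⁻¹).subtypeEquiv fun x => ?_)) hfker
        simp only [Equiv.coe_mulLeft, MonoidHom.mem_ker, map_mul, map_inv]
        rw [inv_mul_eq_one]
        exact eq_comm
      have e : {x : Kˣ // P (f x)} ≃ Σ y : {y : f.range // P y}, {x : Kˣ // f x = (y.1 : Kˣ)} :=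
        { toFun := fun x => ⟨⟨⟨f x, x, rfl⟩, x.2⟩, x, rfl⟩
          invFun := fun z => ⟨z.2.1, by rw [z.2.2]; exact z.1.2⟩
          left_inv := fun x => rfl
          right_inv := by rintro ⟨⟨⟨y, hy⟩, hP⟩, x, (rfl : f x = y)⟩; rfl }
      have := Fintype.ofFinite {y : f.range // P y}
      rw [Nat.card_congr e, Nat.card_sigma, Finset.sum_congr rfl fun y _ => h1 y, Finset.sum_const,
        Finset.card_univ, smul_eq_mul, mul_comm, Nat.card_eq_fintype_card]
    have key := hcov fun y => T (y : K) = 2 * c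
    rw [Nat.card_congr (?_ : {w : W // R w = c ∧ w ≠ 0} ≃ {x : Kˣ // T ((f x : Kˣ) : K) = 2 * c}), key]
    · congr 1
      refine Nat.card_congr
        { toFun := fun y => ⟨⟨((y.1 : Kˣ) : K), (hfrange _).1 y.1.2⟩, y.2, fun h =>
            (y.1 : Kˣ).ne_zero (congrArg Subtype.val h)⟩
          invFun := fun y => ⟨⟨Units.mk0 (y.1 : K) (fun h => y.2.2 (Subtype.ext h)), (hfrange _).2 y.1.2⟩, y.2.1⟩
          left_inv := fun y => by ext; rfl
          right_inv := fun y => rfl }
    · exact
      { toFun := fun w => ⟨Units.mk0 ((Equiv.ofBijective ev hev).symm w.1) (fun h => w.2.2 (by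
            rw [← (Equiv.ofBijective ev hev).apply_symm_apply w.1, h]; exact map_zero ev)), by
          rw [powMonoidHom_apply, Units.val_pow_eq_pow_val, Units.val_mk0, ← hQev]
          rw [show ev ((Equiv.ofBijective ev hev).symm w.1) = w.1 from
            (Equiv.ofBijective ev hev).apply_symm_apply w.1, w.2.1]⟩
        invFun := fun x => ⟨ev (x.1 : K), by
          have := x.2
          rw [powMonoidHom_apply, Units.val_pow_eq_pow_val, ← hQev] at this
          exact mul_left_cancel₀ h2 this, fun h => x.1.ne_zero (hev.1 (by rw [h, map_zero]))⟩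
        left_inv := fun w => Subtype.ext ((Equiv.ofBijective ev hev).apply_symm_apply w.1)
        right_inv := fun x => Subtype.ext (Units.ext ((Equiv.ofBijective ev hev).symm_apply_apply (x.1 : K))) }
  · have hc2 : 2 * c ≠ 0 := mul_ne_zero h2 hc
    let T₀ := T.domRestrict K₀
    have hsurj : Function.Surjective T₀ := LinearMap.surjective fun h0 => by
      obtain ⟨w, hw⟩ := hR.exists_nonsing
      obtain ⟨l, rfl⟩ := hev.2 w
      have hl : l ≠ 0 := by rintro rfl; simp at hw
      have := LinearMap.congr_fun h0 ⟨l ^ N, ((hfrange ((Units.mk0 l hl) ^ N)).1 ⟨_, rfl⟩)⟩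
      change T (l ^ N) = 0 at this
      rw [← hQev] at this
      exact mul_ne_zero h2 hw this
    have hcard0 : Nat.card K₀ = q ^ i := by
      have e : {y : K₀ // y ≠ 0} ≃ f.range :=
        { toFun := fun y => ⟨Units.mk0 (y.1 : K) (fun h => y.2 (Subtype.ext h)), (hfrange _).2 y.1.2⟩
          invFun := fun y => ⟨⟨((y : Kˣ) : K), (hfrange _).1 y.2⟩, fun h => (y : Kˣ).ne_zero (congrArg Subtype.val h)⟩
          left_inv := fun y => rfl
          right_inv := fun y => by ext; rfl }
      have h1 := Nat.card_congr e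
      have h2' := Subgroup.card_eq_card_quotient_mul_card_subgroup f.ker
      rw [Nat.card_congr (QuotientGroup.quotientKerEquivRange f).toEquiv, hfker, hU] at h2'
      rw [← Nat.eq_of_mul_eq_mul_right hNpos h2'] at h1
      have := Fintype.ofFinite K₀
      rw [Nat.card_eq_fintype_card, Fintype.card_subtype_compl, Fintype.card_subtype_eq] at h1
      rw [Nat.card_eq_fintype_card]
      have := Fintype.card_pos (α := K₀)
      omega
    obtain ⟨y₀, hy₀⟩ := hsurj (2 * c)
    have hfib : Nat.card {y : K₀ // T (y : K) = 2 * c ∧ y ≠ 0} = Nat.card (LinearMap.ker T₀) := by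
      refine Nat.card_congr ((Equiv.subRight y₀).subtypeEquiv fun y => ?_)
      rw [LinearMap.mem_ker, Equiv.subRight_apply, map_sub, sub_eq_zero, hy₀]
      exact ⟨fun h => h.1, fun h => ⟨h, fun h0 => hc2 (by rw [← (h : T₀ y = _), h0, map_zero])⟩⟩
    rw [hfib]
    have h3 : Nat.card K₀ = q * Nat.card (LinearMap.ker T₀) := by
      have := Submodule.card_eq_card_quotient_mul_card (LinearMap.ker T₀)
      rw [Nat.card_congr (T₀.quotKerEquivOfSurjective hsurj).toEquiv, Nat.card_eq_fintype_card (α := F)] at this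
      rw [this, mul_comm]
    rw [hcard0] at h3
    refine Nat.Odd.of_mul_right (m := q) ?_
    rw [← h3]
    exact hqodd.pow

omit [Fintype F] in
theorem nd_restrict {g : isoG Q} {W U : Submodule F V} (hQ : Nd Q) (S : Split Q g W U) :
    Nd (Q.comp W.subtype) ∧ Nd (Q.comp U.subtype) := by
  have hsup := S.compl.sup_eq_top
  refine ⟨fun x hx => Subtype.ext (hQ _ fun y => ?_), fun x hx => Subtype.ext (hQ _ fun y => ?_)⟩ <;>
  · obtain ⟨w, hw, u, hu, rfl⟩ := Submodule.mem_sup.1 (hsup ▸ Submodule.mem_top : y ∈ W ⊔ U)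
    rw [polar_add_right]
    first
    | (rw [S.orth _ x.2 _ hu, add_zero]; exact hx ⟨w, hw⟩)
    | (rw [polar_comm Q x.1 w, S.orth _ hw _ x.2, zero_add]; exact hx ⟨u, hu⟩)

/-- `Ω_{2k+3}(q)`, `q` odd, has no element of order `p (q^k + 1)`. -/
theorem no_element (hQ : Nd Q) (h2 : (2 : F) ≠ 0) (p : ℕ) [Fact p.Prime] [CharP F p] (k : ℕ) (hk : 2 ≤ k)
    (hV : Module.finrank F V = 2 * k + 3) (g : isoG Q) (hd : dick hQ g = 1) (hs : spn hQ g = 1)
    (hg : orderOf g = p * (Fintype.card F ^ k + 1)) : False := by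
  set q := Fintype.card F with hq
  set N := q ^ k + 1 with hN
  have hp : 3 ≤ p := by
    rcases (Fact.out : p.Prime).two_le.eq_or_lt with h | h
    · exact absurd (by exact_mod_cast (h ▸ CharP.cast_eq_zero F p : ((2 : ℕ) : F) = 0)) h2
    · omega
  obtain ⟨f, -, hf⟩ := FiniteField.card F p
  have hq3 : 3 ≤ q := by rw [hq, hf]; exact le_trans hp (Nat.le_self_pow f.2.ne' p)
  have := Module.Finite.of_finite (R := F) (M := V)
  obtain ⟨r, hr, hrd, hrmin⟩ := Zsigmondy.exists_primitive_prime q (2 * k) (by omega) (by omega) (by omega)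
    (by omega)
  have : Fact r.Prime := ⟨hr⟩
  have hrq : q ^ (2 * k) ≡ 1 [MOD r] := ((Nat.modEq_iff_dvd' (Nat.one_le_pow _ _ (by omega))).2 hrd).symm
  have hmin : ∀ i, 0 < i → i < 2 * k → ¬ q ^ i ≡ 1 [MOD r] := fun i hi hi' hc =>
    hrmin i hi hi' ((Nat.modEq_iff_dvd' (Nat.one_le_pow _ _ (by omega))).1 hc.symm)
  have hrN : r ∣ N := by
    have h1 : r ∣ (q ^ k - 1) * N := by
      rw [hN, Nat.sub_one_mul, mul_add, mul_one, ← pow_add, ← two_mul]
      have := Nat.one_le_pow k q (by omega)
      rwa [show q ^ (2 * k) + q ^ k - (q ^ k + 1) = q ^ (2 * k) - 1 by omega]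
    exact ((Nat.Prime.dvd_mul hr).1 h1).resolve_left (hrmin k (by omega) (by omega))
  have hr2 : r ≠ 2 := by
    rintro rfl
    refine hrmin 1 one_pos (by omega) ?_
    rw [pow_one]
    have := odd_card_of_two_ne_zero h2
    rw [← hq] at this
    exact Nat.dvd_of_mod_eq_zero (by have := Nat.odd_iff.1 this; omega)
  set e := p * N / r with he
  have her : e * r = p * N := Nat.div_mul_cancel (hrN.mul_left p)
  set h := g ^ e with hh
  have hho : orderOf h = r := by
    have hepos : 0 < e := Nat.pos_of_ne_zero fun h0 => by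
      rw [h0, zero_mul] at her
      exact absurd her.symm (by positivity)
    rw [hh, orderOf_pow_of_dvd hepos.ne' ⟨r, hg.trans her.symm⟩, hg.trans her.symm,
      Nat.mul_div_cancel_left r hepos]
  have hhr : h ^ r = 1 := hho ▸ pow_orderOf_eq_one h
  let D : V →ₗ[F] V := (h.1 : V →ₗ[F] V) - LinearMap.id
  have hD : ∀ x, D x = h.1 x - x := fun x => rfl
  let W := LinearMap.range D
  let U := LinearMap.ker D
  have hUm : ∀ x, x ∈ U ↔ h.1 x = x := fun x => by rw [LinearMap.mem_ker, hD, sub_eq_zero]
  have hgh : ∀ x, g.1 (h.1 x) = h.1 (g.1 x) := fun x => by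
    rw [← LinearEquiv.mul_apply, ← LinearEquiv.mul_apply, ← Subgroup.coe_mul, ← Subgroup.coe_mul, hh,
      ← pow_succ', ← pow_succ]
  have hr0 : (r : F) ≠ 0 := by
    intro hc
    have hrp : r = p := ((Nat.prime_dvd_prime_iff_eq Fact.out hr).1 ((CharP.cast_eq_zero_iff F p r).1 hc)).symm
    have hpq : p ∣ q ^ k := by
      rw [hq, hf, ← pow_mul]
      exact dvd_pow_self p (mul_ne_zero f.2.ne' (by omega))
    exact (Fact.out : p.Prime).one_lt.ne' (Nat.dvd_one.1 ((Nat.dvd_add_right hpq).1 (hrp ▸ hrN)))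
  have hdisj : Disjoint W U := by
    rw [Submodule.disjoint_def]
    rintro _ ⟨y, rfl⟩ hfix
    rw [hUm] at hfix
    have hit : ∀ j : ℕ, (h ^ j).1 y = y + j • D y := by
      intro j
      induction j with
      | zero => simp
      | succ j ih =>
        rw [pow_succ', Subgroup.coe_mul, LinearEquiv.mul_apply, ih, map_add, map_nsmul, hfix, succ_nsmul']
        rw [hD]; abel
    have := hit r
    rw [hhr, ← Nat.cast_smul_eq_nsmul F] at this
    simpa [hr0] using this
  have S : Split Q g W U := by
    refine ⟨⟨hdisj, codisjoint_iff.2 (Submodule.eq_top_of_finrank_eq ?_)⟩, ?_, ?_, ?_⟩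
    · have h1 := Submodule.finrank_sup_add_finrank_inf_eq W U
      rw [hdisj.eq_bot, finrank_bot, add_zero] at h1
      rw [h1]
      exact D.finrank_range_add_finrank_ker
    · rintro _ ⟨x, rfl⟩ y hy
      rw [hD, polar_sub_left]
      conv_lhs => arg 1; arg 3; rw [← (hUm y).1 hy]
      rw [iso_B, sub_self]
    · rintro _ ⟨x, rfl⟩
      exact ⟨g.1 x, by rw [hD, hD, map_sub, hgh]⟩
    · intro x hx
      rw [hUm] at hx ⊢
      rw [← hgh, hx]
  obtain ⟨hRW, hRU⟩ := nd_restrict hQ S
  let a : Module.End F W := res g W S.mapsW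
  let b : Module.End F U := res g U S.mapsU
  have hdimWU : Module.finrank F W + Module.finrank F U = 2 * k + 3 := by
    rw [← hV]; exact Submodule.finrank_add_eq_of_isCompl S.compl
  have hfree : ∀ x : W, (a ^ e) x = x → x = 0 := fun x hx => Subtype.ext (by
    have h1 : h.1 (x : V) = x := by rw [hh, ← res_pow_apply g W S.mapsW]; exact congrArg Subtype.val hx
    exact (Submodule.disjoint_def.1 hdisj) _ x.2 ((hUm _).2 h1))
  have hext : ∀ j, (a ^ j = 1) → (∀ x : U, (g ^ j).1 (x : V) = x) → g ^ j = 1 := by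
    intro j h1 h1'
    refine iso_ext fun v => ?_
    obtain ⟨w, hw, u, hu, rfl⟩ := Submodule.mem_sup.1 (S.compl.sup_eq_top ▸ Submodule.mem_top : v ∈ W ⊔ U)
    rw [map_add, h1' ⟨u, hu⟩, ← res_pow_apply g W S.mapsW j ⟨w, hw⟩]
    rw [show res g W S.mapsW ^ j = 1 from h1]
    rfl
  have haer : (a ^ e) ^ r = 1 := LinearMap.ext fun x => Subtype.ext (by
    rw [← pow_mul, res_pow_apply, her, ← hg, pow_orderOf_eq_one]; rfl)
  have hUfix : ∀ j : ℕ, ∀ x : U, (g ^ (e * j)).1 (x : V) = x := by
    intro j x
    induction j with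
    | zero => simp
    | succ j ih => rw [Nat.mul_succ, pow_add, Subgroup.coe_mul, LinearEquiv.mul_apply, ← hh, (hUm _).1 x.2, ih]
  have hW : Module.finrank F W = 2 * k := by
    let E0 : Module.End F W := a ^ e
    let σ : Equiv.Perm W := Equiv.ofBijective E0 (Finite.injective_iff_bijective.1
      ((injective_iff_map_eq_zero E0).2 fun x hx => Subtype.ext (by
        have : (g ^ e).1 (x : V) = 0 := by rw [← res_pow_apply g W S.mapsW]; exact congrArg Subtype.val hx
        simpa using (g ^ e).1.map_eq_zero_iff.1 this)))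
    have hσ : σ ^ r = 1 := Equiv.ext fun x => by
      have : ∀ j : ℕ, (σ ^ j) x = ((a ^ e) ^ j) x := fun j => by
        induction j with
        | zero => simp
        | succ j ih => rw [pow_succ', pow_succ', Equiv.Perm.mul_apply, Module.End.mul_apply, ih]; rfl
      rw [this, haer]; rfl
    have hm := modEq_one σ r hσ 0 fun x => ⟨hfree x, fun h0 => by subst h0; exact map_zero E0⟩
    rw [Module.natCard_eq_pow_finrank (K := F), Nat.card_eq_fintype_card, ← hq] at hm
    obtain ⟨t, ht⟩ := dvd_of_modEq hrq hmin (by omega) hm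
    rcases t with _ | _ | t
    · exfalso
      have hW0 : W = ⊥ := Submodule.finrank_eq_zero.1 (by omega)
      have hh1 : h = 1 := iso_ext fun v => by
        have : D v ∈ W := ⟨v, rfl⟩
        rw [hW0, Submodule.mem_bot, hD, sub_eq_zero] at this
        simpa using this
      rw [hh1, orderOf_one] at hho
      exact hr.one_lt.ne hho
    · omega
    · rw [Nat.mul_add, Nat.mul_add] at ht; omega
  have hU : Module.finrank F U = 3 := by omega
  have ha' : a * res g⁻¹ W (fun x hx => by
      obtain ⟨j, hj⟩ := (mem_powers_iff_mem_zpowers.2 (inv_mem (Subgroup.mem_zpowers g)) : g⁻¹ ∈ Submonoid.powers g)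
      rw [← hj]; exact pow_mapsTo S.mapsW j x hx) = 1 := LinearMap.ext fun x => Subtype.ext (by
    show g.1 ((g⁻¹).1 (x : V)) = _
    rw [← LinearEquiv.mul_apply, ← Subgroup.coe_mul, mul_inv_cancel]; rfl)
  obtain ⟨haN, hafree, hcount⟩ := irreducible_part hRW h2 k r e (by omega) hr2 hW hrq hmin a _ ha'
    (fun x => iso_Q g (x : V)) haer hfree
  -- the part on U
  have hu1 : b ^ N ≠ 1 := fun hb => by
    have : g ^ N = 1 := hext N haN fun x => by rw [← res_pow_apply g U S.mapsU]; exact congrArg Subtype.val (LinearMap.congr_fun hb x)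
    have h1 := orderOf_dvd_of_pow_eq_one this
    rw [hg] at h1
    have := Nat.le_of_dvd (by omega) h1
    have h9 : 0 < N := by omega
    have := Nat.mul_le_mul_right N hp
    omega
  have hbisoN : ∀ x : U, Q (((b ^ N) x : U) : V) = Q x := fun x => by rw [res_pow_apply, iso_Q]
  have hup : (b ^ N) ^ p = 1 := LinearMap.ext fun x => Subtype.ext (by
    rw [← pow_mul, res_pow_apply, mul_comm, ← hg, pow_orderOf_eq_one]; rfl)
  have hbp : b ^ p = 1 := by
    rcases three_dim hRU h2 hU p hp b (b ^ N) (fun x => iso_Q g (x : V)) hbisoN (Commute.self_pow b N) hup hu1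
      with hb | hb
    · exact hb
    exfalso
    have hap : a ^ p ≠ 1 := fun ha1 => by
      have : g ^ (2 * p) = 1 := hext _ (by rw [mul_comm, pow_mul, ha1, one_pow]) fun x => by
        rw [← res_pow_apply g U S.mapsU, mul_comm, pow_mul, show res g U S.mapsU ^ p = -1 from hb]
        simp [pow_two, Module.End.mul_apply]
      have h1 := orderOf_dvd_of_pow_eq_one this
      rw [hg] at h1
      have := Nat.le_of_dvd (by positivity) h1
      have h9 : 1 < q ^ k := Nat.one_lt_pow (by omega) (by omega)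
      rw [mul_comm 2 p] at this
      have := Nat.le_of_mul_le_mul_left this (by omega)
      omega
    have hfix : fixS (g ^ p) = ⊥ := (Submodule.eq_bot_iff _).2 fun v hv => by
      rw [mem_fixS] at hv
      obtain ⟨w, hw, u, hu, rfl⟩ := Submodule.mem_sup.1 (S.compl.sup_eq_top ▸ Submodule.mem_top : v ∈ W ⊔ U)
      rw [map_add] at hv
      have hbu : (g ^ p).1 u = -u := by
        rw [← res_pow_apply g U S.mapsU p ⟨u, hu⟩, show res g U S.mapsU ^ p = -1 from hb]; rfl
      rw [hbu, ← res_pow_apply g W S.mapsW p ⟨w, hw⟩] at hv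
      set w' := (res g W S.mapsW ^ p) ⟨w, hw⟩ with hw'
      have hsub : (w' : V) - w = u + u := by
        have e1 : (w' : V) = w + (u + u) := by
          calc (w' : V) = ((w' : V) + -u) + u := by abel
            _ = w + u + u := by rw [hv]
            _ = _ := by abel
        rw [e1]; abel
      have h0 : u + u = 0 := Submodule.disjoint_def.1 hdisj _ (hsub ▸ W.sub_mem w'.2 hw) (U.add_mem hu hu)
      have hu0 : u = 0 := by
        rw [← two_smul F] at h0
        exact (smul_eq_zero.1 h0).resolve_left h2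
      rw [h0, sub_eq_zero] at hsub
      have := hafree p hap ⟨w, hw⟩ (Subtype.ext hsub)
      rw [show w = 0 from congrArg Subtype.val this, hu0, add_zero]
    have := dick_eq hQ (g ^ p)
    rw [map_pow, hd, one_pow, hfix, finrank_bot, hV] at this
    rw [show 2 * k + 3 + 0 = 2 * (k + 1) + 1 by ring, pow_succ, pow_mul, neg_one_sq, one_pow, one_mul] at this
    exact absurd this (by decide)
  -- the spinor norm of g ^ p
  set c := g ^ p with hcdef
  have hco : orderOf c = N := by
    rw [hcdef, orderOf_pow_of_dvd (Fact.out : p.Prime).ne_zero (hg ▸ dvd_mul_right _ _), hg,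
      Nat.mul_div_cancel_left _ (Fact.out : p.Prime).pos]
  have hcU : ∀ j : ℕ, ∀ x ∈ U, (c ^ j).1 x = x := fun j x hx => by
    rw [hcdef, ← pow_mul, ← res_pow_apply g U S.mapsU _ ⟨x, hx⟩, pow_mul,
      show res g U S.mapsU ^ p = 1 from hbp, one_pow]
    rfl
  have hNeven : Even N := by
    rw [hN]; exact (odd_card_of_two_ne_zero h2).pow.add_one
  have hcfree : ∀ j : ℕ, ¬ N ∣ j → ∀ w : W, (c ^ j).1 (w : V) = w → w = 0 := by
    intro j hj w hw
    refine hafree (p * j) (fun h1 => hj ?_) w (Subtype.ext ?_)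
    · rw [← hco]
      refine orderOf_dvd_of_pow_eq_one ?_
      rw [hcdef, ← pow_mul]
      exact hext _ h1 fun x => by rw [pow_mul]; exact hcU j x x.2
    · rw [res_pow_apply, pow_mul]; exact hw
  have hsc : spn hQ c = 1 := by rw [hcdef, map_pow, hs, one_pow]
  have hdc : dick hQ c = 1 := by rw [hcdef, map_pow, hd, one_pow]
  rw [spn, MonoidHom.mul_apply, MonoidHom.comp_apply, MonoidHom.comp_apply, hdc, map_one, mul_one] at hsc
  let X := {v : ((Fin 3 → F) × (Fin 3 → F)) × V // splitQ 3 Q v = 1}
  have : Fintype X := Fintype.ofFinite X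
  set σ : Equiv.Perm X := permOne (splitQ 3 Q) (bigHom Q c) with hσ
  have hσj : ∀ (j : ℕ) (v : X), ((σ ^ j) v).1 = (v.1.1, (c ^ j).1 v.1.2) := fun j v => by
    rw [hσ, ← map_pow, ← map_pow]; rfl
  have hσ1 : ∀ v : X, (σ v).1 = (v.1.1, c.1 v.1.2) := fun v => rfl
  -- coordinates
  let proj := Submodule.prodEquivOfIsCompl W U S.compl
  have hdec : ∀ (j : ℕ) (v : V), (c ^ j).1 v = v ↔ N ∣ j ∨ (proj.symm v).1 = 0 := by
    intro j v
    obtain ⟨⟨w, u⟩, rfl⟩ := proj.surjective v
    rw [LinearEquiv.symm_apply_apply]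
    show (c ^ j).1 ((w : V) + u) = w + u ↔ _
    rw [map_add, hcU j u u.2, add_left_inj]
    constructor
    · intro hw
      by_contra hcon
      push Not at hcon
      exact hcon.2 (hcfree j hcon.1 w hw)
    · rintro (⟨t, rfl⟩ | hw)
      · rw [pow_mul, ← hco, pow_orderOf_eq_one, one_pow]; rfl
      · rw [show w = 0 from hw]; simp
  have hsemi : ∀ j : ℕ, ∀ v : X, σ v ≠ v → ((σ ^ j) v = v ↔ N ∣ j) := by
    intro j v hv
    have hne : ¬ (proj.symm v.1.2).1 = 0 := fun h0 => hv (Subtype.ext (by
      rw [hσ1]; exact Prod.ext rfl (by have := (hdec 1 v.1.2).2 (Or.inr h0); rwa [pow_one] at this)))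
    rw [Subtype.ext_iff, hσj, Prod.ext_iff]
    simp only [true_and]
    rw [hdec]
    simp [hne]
  have hsign' : (-1 : ℤˣ) ^ (Nat.card {v : X // σ v ≠ v} / N) = 1 := by
    refine Eq.trans ?_ hsc
    show _ = sgnOne (splitQ 3 Q) (bigHom Q c)
    unfold sgnOne
    rw [MonoidHom.comp_apply, ← hσ]
    exact (sign_semiregular _ hNeven hsemi).symm
  have hN1 : 1 < N := by rw [hN]; have := Nat.one_lt_pow (by omega : k ≠ 0) (by omega : 1 < q); omega
  let Y := ((Fin 3 → F) × (Fin 3 → F)) × U
  let RY : Y → F := fun y => splitQ 3 (Q.comp U.subtype) y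
  let E : {v : X // σ v ≠ v} ≃ Σ y : Y, {w : W // Q (w : V) = 1 - RY y ∧ w ≠ 0} :=
    { toFun := fun v => ⟨(v.1.1.1, (proj.symm v.1.1.2).2), (proj.symm v.1.1.2).1, by
        constructor
        · have h1 := v.1.2
          set y := proj.symm v.1.1.2 with hy
          have hv2 : v.1.1.2 = (y.1 : V) + y.2 := by
            rw [hy, ← Submodule.coe_prodEquivOfIsCompl' W U S.compl, LinearEquiv.apply_symm_apply]
          rw [splitQ_apply, hv2, QuadraticMap.map_add ⇑Q, S.orth _ y.1.2 _ y.2.2, add_zero] at h1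
          simp only [RY, splitQ_apply, QuadraticMap.comp_apply, Submodule.subtype_apply]
          linear_combination h1
        · intro h0
          refine v.2 (Subtype.ext ?_)
          rw [hσ1]
          exact Prod.ext rfl (by have := (hdec 1 _).2 (Or.inr h0); rwa [pow_one] at this)⟩
      invFun := fun z => ⟨⟨(z.1.1, (z.2.1 : V) + (z.1.2 : V)), by
          have h1 := z.2.2.1
          simp only [RY, splitQ_apply, QuadraticMap.comp_apply, Submodule.subtype_apply] at h1
          rw [splitQ_apply, QuadraticMap.map_add ⇑Q, S.orth _ z.2.1.2 _ z.1.2.2, add_zero]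
          linear_combination h1⟩, fun h0 => by
          have h1 := congrArg (fun x : X => x.1.2) h0
          simp only [hσ1] at h1
          rcases (hdec 1 _).1 (by rwa [pow_one]) with h2' | h2'
          · have := Nat.dvd_one.1 h2'; omega
          · refine z.2.2.2 ?_
            rw [show (z.2.1 : V) + (z.1.2 : V) = proj (z.2.1, z.1.2) from rfl, LinearEquiv.symm_apply_apply] at h2'
            exact h2'⟩
      left_inv := fun v => by
        refine Subtype.ext (Subtype.ext (Prod.ext rfl ?_))
        show ((proj.symm v.1.1.2).1 : V) + (proj.symm v.1.1.2).2 = v.1.1.2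
        rw [← Submodule.coe_prodEquivOfIsCompl' W U S.compl, LinearEquiv.apply_symm_apply]
      right_inv := by
        rintro ⟨⟨x, u⟩, ⟨w, hw⟩⟩
        have e : proj.symm ((w : V) + (u : V)) = (w, u) := by
          rw [show (w : V) + (u : V) = proj (w, u) from rfl, LinearEquiv.symm_apply_apply]
        refine Sigma.subtype_ext ?_ ?_ <;> simp [e] }
  have : Fintype Y := Fintype.ofFinite Y
  choose s hs1 hs2 using hcount
  have hD' : Nat.card {v : X // σ v ≠ v} = N * ∑ y : Y, s (1 - RY y) := by
    rw [Nat.card_congr E, Nat.card_sigma, Finset.mul_sum]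
    exact Finset.sum_congr rfl fun y _ => hs1 (1 - RY y)
  have hpar : ((∑ y : Y, s (1 - RY y) : ℕ) : ZMod 2) = 1 := by
    push_cast
    rw [← Finset.add_sum_erase _ _ (Finset.mem_univ (0 : Y))]
    have h0 : RY 0 = 0 := map_zero _
    rw [h0, sub_zero, ZMod.natCast_eq_one_iff_odd.2 (hs2 1 one_ne_zero)]
    suffices ∑ y ∈ Finset.univ.erase (0 : Y), (s (1 - RY y) : ZMod 2) = 0 by rw [this, add_zero]
    refine Finset.sum_involution (fun y _ => -y) (fun y _ => ?_) (fun y hy _ => ?_) (fun y hy => ?_) (fun y _ => neg_neg y)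
    · simp only [RY, QuadraticMap.map_neg]
      exact CharTwo.add_self_eq_zero _
    · intro h1
      have hy0 := (Finset.mem_erase.1 hy).1
      refine hy0 ((smul_eq_zero.1 (?_ : (2 : F) • y = 0)).resolve_left h2)
      rw [two_smul]
      conv_lhs => arg 1; rw [← h1]
      exact neg_add_cancel y
    · simpa using (Finset.mem_erase.1 hy).1
  rw [hD', Nat.mul_div_cancel_left _ (by omega), (ZMod.natCast_eq_one_iff_odd.1 hpar).neg_one_pow] at hsign'
  exact absurd hsign' (by decide)

end Cfsg.Agent.Lib.GS.OrthPN
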