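import Mathlib
import Cfsg.Agent.Lib.Fusion.SLUpper
import Cfsg.Agent.Lib.Forms.SympSubfield
import Cfsg.Agent.Lib.Laws.Embeddings
import Cfsg.Agent.Lib.Classical.Simple

/-!
The standard unipotent subgroup of Sp_{2m}: closed subsets, normalizer, two self-centralizing radicals.
-/

set_option autoImplicit false

namespace Cfsg.Agent.Lib.GS.SpBorel

open Matrix

variable {m : ℕ} {K : Type*} [Field K]

/-- The symplectic group as a type. -/
abbrev Sp (m : ℕ) (K : Type*) [Field K] := ↥(Matrix.symplecticGroup (Fin m) K)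

local notation "G" => Sp m K
local notation "M" => Matrix (Fin m) (Fin m) K

/-- Upper left block. -/
def bA (g : G) : M := (g : Matrix (Fin m ⊕ Fin m) (Fin m ⊕ Fin m) K).toBlocks₁₁
/-- Upper right block. -/
def bB (g : G) : M := (g : Matrix (Fin m ⊕ Fin m) (Fin m ⊕ Fin m) K).toBlocks₁₂
/-- Lower left block. -/
def bC (g : G) : M := (g : Matrix (Fin m ⊕ Fin m) (Fin m ⊕ Fin m) K).toBlocks₂₁
/-- Lower right block. -/
def bD (g : G) : M := (g : Matrix (Fin m ⊕ Fin m) (Fin m ⊕ Fin m) K).toBlocks₂₂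

theorem val_eq (g : G) : (g : Matrix (Fin m ⊕ Fin m) (Fin m ⊕ Fin m) K) =
    fromBlocks (bA g) (bB g) (bC g) (bD g) := (fromBlocks_toBlocks _).symm

theorem blocks_of_eq {g : G} {A B C D : M}
    (h : (g : Matrix (Fin m ⊕ Fin m) (Fin m ⊕ Fin m) K) = fromBlocks A B C D) :
    bA g = A ∧ bB g = B ∧ bC g = C ∧ bD g = D := by
  simp only [bA, bB, bC, bD, h]
  simp

theorem ext_blocks {g h : G} (h1 : bA g = bA h) (h2 : bB g = bB h) (h3 : bC g = bC h)
    (h4 : bD g = bD h) : g = h := Subtype.ext (by rw [val_eq g, val_eq h, h1, h2, h3, h4])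

theorem mul_blocks (g h : G) :
    bA (g * h) = bA g * bA h + bB g * bC h ∧ bB (g * h) = bA g * bB h + bB g * bD h ∧
      bC (g * h) = bC g * bA h + bD g * bC h ∧ bD (g * h) = bC g * bB h + bD g * bD h := by
  refine blocks_of_eq ?_
  rw [Submonoid.coe_mul, val_eq g, val_eq h, fromBlocks_multiply]

theorem one_blocks : bA (1 : G) = 1 ∧ bB (1 : G) = 0 ∧ bC (1 : G) = 0 ∧ bD (1 : G) = 1 := by
  refine blocks_of_eq ?_
  simp [fromBlocks_one]

theorem rel (g : G) : (bA g)ᵀ * bC g = (bC g)ᵀ * bA g ∧ (bB g)ᵀ * bD g = (bD g)ᵀ * bB g ∧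
    (bA g)ᵀ * bD g - (bC g)ᵀ * bB g = 1 :=
  SymplecticGroup.fromBlocks_mem_iff.1 (val_eq g ▸ g.2)

theorem rel_AD {g : G} (hC : bC g = 0) : (bA g)ᵀ * bD g = 1 := by
  simpa [hC] using (rel g).2.2

/-- Unipotent upper triangular. -/
def UT (A : M) : Prop := A.BlockTriangular id ∧ ∀ i, A i i = 1

theorem tri_mul_diag {A B : M} (hA : A.BlockTriangular id) (hB : B.BlockTriangular id) (i : Fin m) :
    (A * B) i i = A i i * B i i := by
  rw [Matrix.mul_apply, Finset.sum_eq_single i (fun l _ hl => ?_) (by simp)]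
  rcases lt_or_gt_of_ne hl with hli | hli
  · rw [hA hli, zero_mul]
  · rw [hB hli, mul_zero]

theorem UT.mul {A B : M} (hA : UT A) (hB : UT B) : UT (A * B) :=
  ⟨hA.1.mul hB.1, fun i => by rw [tri_mul_diag hA.1 hB.1, hA.2, hB.2, one_mul]⟩

theorem UT_one : UT (1 : M) := ⟨blockTriangular_one, fun i => by simp⟩

variable (m K) in
/-- The subgroup `U`. -/
def U [Finite K] : Subgroup G where
  carrier := {g : G | bC g = 0 ∧ UT (bA g)}
  one_mem' := ⟨(one_blocks (m := m) (K := K)).2.2.1, by rw [(one_blocks (m := m) (K := K)).1]; exact UT_one⟩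
  mul_mem' {a b} ha hb := by
    obtain ⟨h1, -, h3, -⟩ := mul_blocks a b
    exact ⟨by rw [h3, ha.1, hb.1]; simp, by rw [h1, hb.1, mul_zero, add_zero]; exact ha.2.mul hb.2⟩
  inv_mem' {a} ha := by
    have hpow : ∀ k : ℕ, bC (a ^ k) = 0 ∧ UT (bA (a ^ k)) := by
      intro k
      induction k with
      | zero =>
        obtain ⟨e1, -, e3, -⟩ := one_blocks (m := m) (K := K)
        rw [pow_zero, e1, e3]; exact ⟨rfl, UT_one⟩
      | succ k ih =>
        rw [pow_succ]
        obtain ⟨h1, -, h3, -⟩ := mul_blocks (a ^ k) a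
        exact ⟨by rw [h3, ih.1, ha.1]; simp, by rw [h1, ha.1, mul_zero, add_zero]; exact ih.2.mul ha.2⟩
    have : a⁻¹ = a ^ (orderOf a - 1) := inv_eq_of_mul_eq_one_right (by
      rw [← pow_succ', Nat.sub_add_cancel (orderOf_pos a), pow_orderOf_eq_one])
    rw [this]
    exact hpow _

theorem mem_U [Finite K] {g : G} : g ∈ U m K ↔ bC g = 0 ∧ UT (bA g) := Iff.rfl

/-- The Siegel element of a symmetric matrix. -/
def nu (S : M) (h : S.IsSymm) : G :=
  ⟨fromBlocks 1 S 0 1, SymplecticGroup.fromBlocks_mem_iff.2 ⟨by simp, by simp [h.eq], by simp⟩⟩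

theorem nu_blocks (S : M) (h : S.IsSymm) :
    bA (nu S h) = 1 ∧ bB (nu S h) = S ∧ bC (nu S h) = 0 ∧ bD (nu S h) = 1 := blocks_of_eq rfl

theorem nu_add (S T : M) (hS : S.IsSymm) (hT : T.IsSymm) :
    nu S hS * nu T hT = nu (S + T) (hS.add hT) := by
  refine Subtype.ext ?_
  rw [Submonoid.coe_mul]
  simp [nu, fromBlocks_multiply, add_comm]

theorem nu_inv (S : M) (hS : S.IsSymm) : (nu S hS)⁻¹ = nu (-S) hS.neg := by
  refine inv_eq_of_mul_eq_one_right ?_
  rw [nu_add]
  refine Subtype.ext ?_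
  simp [nu, fromBlocks_one]

theorem nu_congr {S T : M} (hS : S.IsSymm) (e : S = T) : nu S hS = nu T (e ▸ hS) := by subst e; rfl

theorem nu_mem [Finite K] (S : M) (h : S.IsSymm) : nu S h ∈ U m K :=
  ⟨(nu_blocks S h).2.2.1, (nu_blocks S h).1.symm ▸ UT_one⟩

/-- Levi embedding. -/
noncomputable abbrev phi : GL (Fin m) K →* G := Cfsg.Agent.Lib.Laws.glToSp m K

theorem phi_val (P : GL (Fin m) K) :
    (phi P : Matrix (Fin m ⊕ Fin m) (Fin m ⊕ Fin m) K) =
      fromBlocks (P : M) 0 0 ((P⁻¹ : GL (Fin m) K) : M)ᵀ := rfl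

theorem phi_blocks (P : GL (Fin m) K) :
    bA (phi P) = (P : M) ∧ bB (phi P) = 0 ∧ bC (phi P) = 0 ∧
      bD (phi P) = ((P⁻¹ : GL (Fin m) K) : M)ᵀ := blocks_of_eq (phi_val P)

theorem symm_congr {S : M} (hS : S.IsSymm) (P : M) : (P * S * Pᵀ).IsSymm := by
  simp [Matrix.IsSymm, transpose_mul, hS.eq, mul_assoc]

theorem phi_conj_nu (P : GL (Fin m) K) (S : M) (hS : S.IsSymm) :
    phi P * nu S hS * (phi P)⁻¹ = nu ((P : M) * S * (P : M)ᵀ) (symm_congr hS _) := by
  rw [mul_inv_eq_iff_eq_mul]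
  refine Subtype.ext ?_
  rw [Submonoid.coe_mul, Submonoid.coe_mul, phi_val]
  simp [nu, fromBlocks_multiply, mul_assoc, ← transpose_mul]

theorem phi_mem [Finite K] {P : GL (Fin m) K} (h : UT (P : M)) : phi P ∈ U m K :=
  ⟨(phi_blocks P).2.2.1, (phi_blocks P).1.symm ▸ h⟩

/-- An elementary matrix as a unit. -/
def tv {i j : Fin m} (h : i ≠ j) (c : K) : GL (Fin m) K :=
  ⟨Matrix.transvection i j c, Matrix.transvection i j (-c),
    by rw [Matrix.transvection_mul_transvection_same _ _ h, add_neg_cancel, Matrix.transvection_zero],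
    by rw [Matrix.transvection_mul_transvection_same _ _ h, neg_add_cancel, Matrix.transvection_zero]⟩

theorem tv_val {i j : Fin m} (h : i ≠ j) (c : K) : (tv h c : M) = 1 + single i j c := rfl

theorem tv_UT {i j : Fin m} (h : i < j) (c : K) : UT (tv h.ne c : M) := by
  refine ⟨fun a b hab => ?_, fun a => ?_⟩
  · have h1 : ¬(i = a ∧ j = b) := fun ⟨e1, e2⟩ => by
      subst e1 e2; exact absurd hab (not_lt.2 h.le)
    simp [tv_val, Matrix.single_apply, Matrix.one_apply, h1, (show a ≠ b from ne_of_gt hab)]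
  · have h1 : ¬(i = a ∧ j = a) := fun ⟨e1, e2⟩ => h.ne (e1.trans e2.symm)
    simp [tv_val, Matrix.single_apply, h1]

/-- Symmetric pair of entries. -/
def X (i j : Fin m) (b : K) : M := single i j b + single j i b

theorem X_symm (i j : Fin m) (b : K) : (X i j b).IsSymm := by
  simp [X, Matrix.IsSymm, transpose_single, add_comm]

theorem E_symm (i : Fin m) (a : K) : (single i i a : M).IsSymm := by
  simp [Matrix.IsSymm, transpose_single]

theorem XE_symm (i j : Fin m) (a b : K) : (single i i a + X i j b : M).IsSymm :=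
  (E_symm i a).add (X_symm i j b)

/-- The Weyl element of the long root at `j`. -/
def w (j : Fin m) : G :=
  ⟨fromBlocks (1 - single j j 1) (single j j 1) (-single j j 1) (1 - single j j 1),
    SymplecticGroup.fromBlocks_mem_iff.2 ⟨by simp [Matrix.sub_mul, Matrix.mul_sub, transpose_single],
      by simp [Matrix.sub_mul, Matrix.mul_sub, transpose_single],
      by simp [Matrix.sub_mul, Matrix.mul_sub, transpose_single]⟩⟩

theorem w_conj {i j : Fin m} (h : i ≠ j) (a b : K) :
    w j * nu (single i i a + X i j b) (XE_symm i j a b) * (w j)⁻¹ =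
      phi (tv h b) * nu (single i i a) (E_symm i a) := by
  rw [mul_inv_eq_iff_eq_mul]
  refine Subtype.ext ?_
  rw [Submonoid.coe_mul, Submonoid.coe_mul, Submonoid.coe_mul, phi_val]
  simp only [w, nu, fromBlocks_multiply]
  have hi : ((tv h b)⁻¹ : GL (Fin m) K) = tv h (-b) := Units.ext rfl
  simp [hi, tv_val, X, Matrix.sub_mul, Matrix.mul_sub, Matrix.add_mul, Matrix.mul_add, h, h.symm,
    transpose_single, fromBlocks_inj]
  refine ⟨?_, ?_⟩ <;> ext a c <;> simp [Matrix.single_apply] <;> split_ifs <;> ring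

theorem E_conj {i j : Fin m} (b : K) (S : M) :
    (1 + single i j b) * S * (1 + single i j b)ᵀ - S =
      single i j b * S + S * single j i b + single i j b * S * single j i b := by
  rw [transpose_add, transpose_one, transpose_single]
  noncomm_ring

section closed

variable [Finite K]

/-- `T` is closed in `U` under conjugation. -/
def Closed (T : Subgroup G) : Prop := T ≤ U m K ∧ ∀ u ∈ T, ∀ g : G, g * u * g⁻¹ ∈ U m K → g * u * g⁻¹ ∈ T

variable {T : Subgroup (Sp m K)}

theorem Closed.phi_conj (hT : Closed T) {S : M} {hS : S.IsSymm} (h : nu S hS ∈ T) (P : GL (Fin m) K)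
    {S' : M} (hS' : S'.IsSymm) (e : (P : M) * S * (P : M)ᵀ = S') : nu S' hS' ∈ T := by
  have h1 := phi_conj_nu P S hS
  have h2 := hT.2 _ h (phi P) (h1 ▸ nu_mem _ _)
  rw [h1, nu_congr _ e] at h2
  exact h2

theorem nu_sub_mem {S S' : M} {hS : S.IsSymm} {hS' : S'.IsSymm} (h : nu S hS ∈ T)
    (h' : nu S' hS' ∈ T) {R : M} (hR : R.IsSymm) (e : S - S' = R) : nu R hR ∈ T := by
  have h1 := mul_mem h (inv_mem h')
  rw [nu_inv, nu_add, nu_congr _ (by rw [← sub_eq_add_neg, e] : S + -S' = R)] at h1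
  exact h1

theorem Closed.weyl_comm (hT : Closed T) {i j : Fin m} (hij : i < j) {a b : K}
    (h : nu (single i i a + X i j b) (XE_symm i j a b) ∈ T) {S : M} (hS : S.IsSymm) {R : M}
    (hR : R.IsSymm)
    (e : single i j b * S + S * single j i b + single i j b * S * single j i b = R) :
    nu R hR ∈ T := by
  have h1 : phi (tv hij.ne b) * nu (single i i a) (E_symm i a) ∈ T := by
    rw [← w_conj hij.ne]
    exact hT.2 _ h _ (w_conj hij.ne a b ▸ mul_mem (phi_mem (tv_UT hij b)) (nu_mem _ _))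
  set u := phi (tv hij.ne b) * nu (single i i a) (E_symm i a) with hu
  have h2 : nu S hS * u⁻¹ * (nu S hS)⁻¹ ∈ T :=
    hT.2 _ (inv_mem h1) _ (mul_mem (mul_mem (nu_mem _ _) (hT.1 (inv_mem h1))) (inv_mem (nu_mem _ _)))
  have h3 : u * (nu S hS * u⁻¹ * (nu S hS)⁻¹) ∈ T := mul_mem h1 h2
  have h4 : u * nu S hS * u⁻¹ =
      nu (((tv hij.ne b : GL (Fin m) K) : M) * S * ((tv hij.ne b : GL (Fin m) K) : M)ᵀ)
        (symm_congr hS _) := by
    rw [← phi_conj_nu _ S hS, hu]
    have h5 : nu (single i i a) (E_symm i a) * nu S hS * (nu (single i i a) (E_symm i a))⁻¹ =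
        nu S hS := by
      rw [nu_inv, nu_add, nu_add]
      exact nu_congr _ (by abel)
    calc _ = phi (tv hij.ne b) * (nu (single i i a) (E_symm i a) * nu S hS *
          (nu (single i i a) (E_symm i a))⁻¹) * (phi (tv hij.ne b))⁻¹ := by group
      _ = _ := by rw [h5]
  rw [← mul_assoc, ← mul_assoc, h4, nu_inv, nu_add,
    nu_congr _ (by rw [← sub_eq_add_neg, tv_val, E_conj, e])] at h3
  exact h3

theorem Closed.to_tE (hT : Closed T) {i j : Fin m} (hij : i < j) {a b : K}
    (h : nu (single i i a + X i j b) (XE_symm i j a b) ∈ T) (t : K) :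
    nu (single i i (t * b * b) + X i j (t * b)) (XE_symm i j _ _) ∈ T := by
  refine hT.weyl_comm hij h (E_symm j t) _ ?_
  simp [X, hij.ne, hij.ne', mul_comm, mul_left_comm]
  abel

theorem Closed.to_other (hT : Closed T) {i j k : Fin m} (hij : i < j) (hki : k ≠ i) (hkj : k ≠ j)
    {a b : K} (h : nu (single i i a + X i j b) (XE_symm i j a b) ∈ T) :
    nu (single i i 0 + X i k b) (XE_symm i k 0 b) ∈ T := by
  refine hT.weyl_comm hij h (X_symm j k 1) _ ?_
  simp [X, Matrix.mul_add, Matrix.add_mul, hij.ne, hij.ne', hki, hkj, hki.symm, hkj.symm]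

theorem center_form (hm : 2 ≤ m) {z : G} (hz : z ∈ U m K) (hc : ∀ u ∈ U m K, z * u = u * z) :
    ∃ a b : K, z = nu (single ⟨0, by omega⟩ ⟨0, by omega⟩ a +
      X ⟨0, by omega⟩ ⟨1, by omega⟩ b) (XE_symm _ _ _ _) := by
  set i0 : Fin m := ⟨0, by omega⟩
  set i1 : Fin m := ⟨1, by omega⟩
  obtain ⟨hC, hA⟩ := hz
  have hnu : ∀ S : M, S.IsSymm → bA z * S = S * bD z := fun S hS => by
    have h := congrArg bB (hc _ (nu_mem S hS))
    obtain ⟨n1, n2, n3, n4⟩ := nu_blocks S hS
    rw [(mul_blocks _ _).2.1, (mul_blocks _ _).2.1, n1, n2, n4] at h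
    simp only [mul_one, one_mul] at h
    rw [add_comm (bB z)] at h
    exact add_right_cancel h
  have hAD : bA z = bD z := by simpa using hnu 1 Matrix.isSymm_one
  have hA1 : bA z = 1 := by
    ext a c
    by_cases hac : a = c
    · subst hac; rw [hA.2]; simp
    · have h := congrFun (congrFun (hnu _ (E_symm c (1 : K))) a) c
      rw [Matrix.mul_single_apply_same, mul_one, Matrix.single_mul_apply_of_ne _ _ _ _ _ hac] at h
      rw [h, Matrix.one_apply_ne hac]
  have hD1 : bD z = 1 := hAD ▸ hA1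
  have hB : (bB z)ᵀ = bB z := by simpa [hD1] using (rel z).2.1
  have hP : ∀ (i j : Fin m) (hij : i < j), single i j (1 : K) * bB z + bB z * single j i 1 +
      single i j 1 * bB z * single j i 1 = 0 := by
    intro i j hij
    have h := congrArg (fun g : G => bB (g * (phi (tv hij.ne 1))⁻¹)) (hc _ (phi_mem (tv_UT hij (1 : K))))
    simp only [mul_inv_cancel_right] at h
    have hz' : z = nu (bB z) hB := by
      obtain ⟨n1, n2, n3, n4⟩ := nu_blocks (bB z) hB
      exact ext_blocks (hA1.trans n1.symm) n2.symm (hC.trans n3.symm) (hD1.trans n4.symm)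
    have h' := congrArg bB (phi_conj_nu (tv hij.ne (1 : K)) (bB z) hB)
    rw [← hz', (nu_blocks _ _).2.1, tv_val] at h'
    rw [h'] at h
    rw [← E_conj, ← h, sub_self]
  have hzero : ∀ j k : Fin m, ∀ i : Fin m, i < j → k ≠ i → bB z j k = 0 := by
    intro j k i hij hki
    have h := congrFun (congrFun (hP i j hij) i) k
    simpa [hki.symm, Matrix.mul_apply, Matrix.single_apply] using h
  refine ⟨bB z i0 i0, bB z i0 i1, ?_⟩
  obtain ⟨n1, n2, n3, n4⟩ := nu_blocks _ (XE_symm i0 i1 (bB z i0 i0) (bB z i0 i1))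
  refine ext_blocks (hA1.trans n1.symm) ?_ (hC.trans n3.symm) (hD1.trans n4.symm)
  rw [n2]
  have hne : i0 ≠ i1 := by simp [i0, i1, Fin.ext_iff]
  have hs : ∀ a c, bB z a c = bB z c a := fun a c => (congrFun (congrFun hB a) c).symm
  ext a c
  rcases Nat.lt_trichotomy a.1 1 with ha | ha | ha
  · have : a = i0 := Fin.ext (by simp [i0]; omega)
    subst this
    rcases Nat.lt_trichotomy c.1 1 with hc' | hc' | hc'
    · have : c = i0 := Fin.ext (by simp [i0]; omega)
      subst this
      simp [X, hne, hne.symm]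
    · have : c = i1 := Fin.ext hc'
      subst this
      simp [X, hne, hne.symm]
    · have h0 : c ≠ i0 := Fin.ne_of_val_ne (by simp [i0]; omega)
      have h1 : c ≠ i1 := Fin.ne_of_val_ne (by simp [i1]; omega)
      rw [hs, hzero c i0 i1 (Fin.lt_def.2 hc') hne]
      simp [X, h0.symm, h1.symm, Matrix.single_apply]
  · have : a = i1 := Fin.ext ha
    subst this
    by_cases h0 : c = i0
    · subst h0; simp [X, hne, hne.symm, hs i1 i0]
    · rw [hzero i1 c i0 (by simp [i0, i1, Fin.lt_def]) h0]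
      simp [X, Matrix.single_apply, Ne.symm h0, hne]
  · have ha0 : a ≠ i0 := Fin.ne_of_val_ne (by simp [i0]; omega)
    have ha1 : a ≠ i1 := Fin.ne_of_val_ne (by simp [i1]; omega)
    by_cases h0 : c = i0
    · subst h0
      rw [hzero a i0 i1 (Fin.lt_def.2 ha) hne]
      simp [X, Matrix.single_apply, ha0.symm, ha1.symm]
    · rw [hzero a c i0 (by simp [i0, Fin.lt_def]; omega) h0]
      simp [X, Matrix.single_apply, ha0.symm, ha1.symm]


theorem Closed.nu_smul (hT : Closed T) {i : Fin m} {c : K} (h : nu (single i i c) (E_symm i c) ∈ T)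
    {s : K} (hs : s ≠ 0) : nu (single i i (c * (s * s))) (E_symm _ _) ∈ T := by
  refine hT.phi_conj h (Matrix.GeneralLinearGroup.scalar (Fin m) (Units.mk0 s hs)) (E_symm _ _) ?_
  ext a b
  simp [Matrix.single_apply]
  split_ifs <;> ring

theorem Closed.all_E (hT : Closed T) {i0 : Fin m} {c : K} (hc : c ≠ 0)
    (h : nu (single i0 i0 c) (E_symm i0 c) ∈ T) (i : Fin m) (t : K) :
    nu (single i i t) (E_symm i t) ∈ T := by
  have : Fintype K := Fintype.ofFinite K
  have h0 : nu (single i0 i0 t) (E_symm i0 t) ∈ T := by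
    obtain ⟨x, y, hxy⟩ := Cfsg.Agent.Lib.Forms.exists_sum_two_squares (t / c)
    have hsq : ∀ s : K, nu (single i0 i0 (c * (s * s))) (E_symm _ _) ∈ T := fun s => by
      rcases eq_or_ne s 0 with rfl | hs
      · convert T.one_mem using 1
        refine Subtype.ext ?_
        simp [nu, fromBlocks_one]
      · exact hT.nu_smul h hs
    have h1 := mul_mem (hsq x) (hsq y)
    rw [nu_add, nu_congr (T := single i0 i0 t) _ (by
      rw [← single_add, ← mul_add, ← hxy, mul_div_cancel₀ t hc])] at h1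
    exact h1
  refine hT.phi_conj h0 (Matrix.GeneralLinearGroup.swap K i i0) (E_symm i t) ?_
  have hs : ∀ a, Matrix.swap K i i0 a i0 = if a = i then 1 else 0 := fun a => by
    simp [Matrix.swap, Equiv.Perm.permMatrix, PEquiv.toMatrix, Equiv.swap_apply_def]
    split_ifs <;> simp_all
  show Matrix.swap K i i0 * single i0 i0 t * (Matrix.swap K i i0)ᵀ = single i i t
  ext a b
  simp only [Matrix.mul_apply, Matrix.transpose_apply, Matrix.single_apply, ite_and,
    mul_ite, mul_zero, Finset.sum_ite_eq, Finset.mem_univ, if_true, ite_mul, zero_mul, hs]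
  by_cases ha : a = i <;> by_cases hb : b = i <;> simp [ha, hb, Ne.symm]

theorem Closed.all_X (hT : Closed T) (hE : ∀ (i : Fin m) (t : K), nu (single i i t) (E_symm i t) ∈ T)
    {i j : Fin m} (hij : i ≠ j) (t : K) : nu (X i j t) (X_symm i j t) ∈ T := by
  have h1 := hT.phi_conj (hE j t) (tv hij 1)
    (show (single j j t + single i i t + X i j t : M).IsSymm from
      ((E_symm j t).add (E_symm i t)).add (X_symm i j t))
    (by simp [tv_val, X, Matrix.add_mul, Matrix.mul_add, transpose_single, hij, hij.symm]; abel)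
  refine nu_sub_mem (nu_sub_mem h1 (hE j t) (XE_symm i j t t) ?_) (hE i t) (X_symm i j t) ?_ <;> abel

theorem Closed.nu_all (hT : Closed T) (hE : ∀ (i : Fin m) (t : K), nu (single i i t) (E_symm i t) ∈ T)
    (S : M) (hS : S.IsSymm) : nu S hS ∈ T := by
  classical
  let H : AddSubgroup M :=
    { carrier := {S | ∃ h : S.IsSymm, nu S h ∈ T}
      zero_mem' := ⟨Matrix.isSymm_zero, by
        convert T.one_mem using 1
        refine Subtype.ext ?_
        simp [nu, fromBlocks_one]⟩
      add_mem' := fun {a b} ha hb => ⟨ha.1.add hb.1, nu_add _ _ ha.1 hb.1 ▸ mul_mem ha.2 hb.2⟩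
      neg_mem' := fun {a} ha => ⟨ha.1.neg, nu_inv _ ha.1 ▸ inv_mem ha.2⟩ }
  have hsum : S = ∑ p : Fin m × Fin m,
      (if p.1 = p.2 then single p.1 p.1 (S p.1 p.1) else
        if p.1 < p.2 then X p.1 p.2 (S p.1 p.2) else 0) := by
    ext a b
    rw [Matrix.sum_apply]
    rcases lt_trichotomy a b with hab | rfl | hab
    · rw [Finset.sum_eq_single (a, b) (fun q _ hq => ?_) (by simp)]
      · simp [X, hab, hab.ne, hab.ne']
      · obtain ⟨q1, q2⟩ := q
        simp only [ne_eq, Prod.mk.injEq] at hq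
        dsimp only
        split_ifs with h1 h2
        · subst h1
          simp only [Matrix.single_apply]
          rw [if_neg (fun e => hab.ne (e.1.symm.trans e.2))]
        · have : ¬(q2 = a ∧ q1 = b) := fun e => by
            obtain ⟨rfl, rfl⟩ := e; exact lt_asymm h2 hab
          simp [X, Matrix.single_apply, hq, this]
        · simp
    · rw [Finset.sum_eq_single (a, a) (fun q _ hq => ?_) (by simp)]
      · simp
      · obtain ⟨q1, q2⟩ := q
        simp only [ne_eq, Prod.mk.injEq] at hq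
        dsimp only
        split_ifs with h1 h2
        · subst h1
          simp only [Matrix.single_apply]
          rw [if_neg (fun e => hq ⟨e.1, e.1⟩)]
        · have h3 : ¬(q1 = a ∧ q2 = a) := hq
          have h4 : ¬(q2 = a ∧ q1 = a) := fun e => hq ⟨e.2, e.1⟩
          simp [X, Matrix.single_apply, h3, h4]
        · simp
    · rw [Finset.sum_eq_single (b, a) (fun q _ hq => ?_) (by simp)]
      · simp [X, hab, hab.ne, hab.ne', hS.apply b a]
      · obtain ⟨q1, q2⟩ := q
        simp only [ne_eq, Prod.mk.injEq] at hq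
        dsimp only
        split_ifs with h1 h2
        · subst h1
          simp only [Matrix.single_apply]
          rw [if_neg (fun e => hab.ne' (e.1.symm.trans e.2))]
        · have h3 : ¬(q1 = a ∧ q2 = b) := fun e => by
            obtain ⟨rfl, rfl⟩ := e; exact lt_asymm h2 hab
          have h4 : ¬(q2 = a ∧ q1 = b) := fun e => hq ⟨e.2, e.1⟩
          simp [X, Matrix.single_apply, h3, h4]
        · simp
  suffices hmem : S ∈ H from hmem.2
  rw [hsum]
  refine AddSubgroup.sum_mem _ fun q _ => ?_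
  split_ifs with h1 h2
  · exact ⟨E_symm _ _, hE _ _⟩
  · exact ⟨X_symm _ _ _, hT.all_X hE h1 _⟩
  · exact H.zero_mem

/-- `SL_m → GL_m → Sp_{2m}`. -/
noncomputable abbrev phiSL : Matrix.SpecialLinearGroup (Fin m) K →* G :=
  phi.comp Matrix.SpecialLinearGroup.toGL

theorem phiSL_x {i j : Fin m} (h : i ≠ j) (c : K) :
    phiSL (Matrix.SpecialLinearGroup.transvection h c) = phi (tv h c) := by
  show phi _ = _
  congr 1
  refine Units.ext ?_
  show ((Matrix.SpecialLinearGroup.transvection h c : Matrix.SpecialLinearGroup (Fin m) K) : M) = _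
  rw [SpecialLinearGroup.transvection_coe]; rfl

theorem det_UT {A : M} (h : UT A) : A.det = 1 := by
  rw [Matrix.det_of_upperTriangular h.1]; simp [h.2]

/-- A member of `U` is a Siegel element times a Levi element. -/
theorem U_decomp {u : G} (hu : u ∈ U m K) :
    ∃ (S : M) (hS : S.IsSymm) (A : Matrix.SpecialLinearGroup (Fin m) K),
      A ∈ Cfsg.Agent.Lib.Fusion.SLUpper.U m K ∧ u = nu S hS * phiSL A := by
  refine ⟨bB (u * (phiSL ⟨bA u, det_UT hu.2⟩)⁻¹), ?_, ⟨bA u, det_UT hu.2⟩, hu.2, ?_⟩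
  all_goals
    set A : Matrix.SpecialLinearGroup (Fin m) K := ⟨bA u, det_UT hu.2⟩
    set v := u * (phiSL A)⁻¹ with hv
    obtain ⟨p1, p2, p3, p4⟩ := phi_blocks (Matrix.SpecialLinearGroup.toGL A)
    have hvu : v * phiSL A = u := inv_mul_cancel_right _ _
    obtain ⟨m1, m2, m3, m4⟩ := mul_blocks v (phiSL A)
    rw [hvu] at m1 m3
    rw [show phiSL A = phi (Matrix.SpecialLinearGroup.toGL A) from rfl, p1, p3] at m1 m3
    simp only [mul_zero, add_zero] at m1 m3
    have hunit : IsUnit (bA u).det := by rw [det_UT hu.2]; exact isUnit_one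
    have hA : bA v = 1 := by
      have h := congrArg (· * (bA u)⁻¹) m1
      simp only [show ((Matrix.SpecialLinearGroup.toGL A : GL (Fin m) K) : M) = bA u from rfl] at h
      rw [mul_assoc, Matrix.mul_nonsing_inv _ hunit, mul_one] at h
      exact h.symm
    have hC : bC v = 0 := by
      have h := congrArg (· * (bA u)⁻¹) m3
      simp only [show ((Matrix.SpecialLinearGroup.toGL A : GL (Fin m) K) : M) = bA u from rfl] at h
      rw [mul_assoc, Matrix.mul_nonsing_inv _ hunit, mul_one, hu.1, zero_mul] at h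
      exact h.symm
    have hD : bD v = 1 := by simpa [hA] using rel_AD hC
    have hS : (bB v)ᵀ = bB v := by simpa [hD] using (rel v).2.1
  · exact hS
  · obtain ⟨n1, n2, n3, n4⟩ := nu_blocks (bB v) hS
    refine hvu.symm.trans ?_
    congr 1
    exact ext_blocks (hA.trans n1.symm) n2.symm (hC.trans n3.symm) (hD.trans n4.symm)

theorem closed_eq (hm : 2 ≤ m) (hq : m = 2 → 3 ≤ Nat.card K) (hT : Closed T) {z : G} (hz : z ∈ T)
    (hz1 : z ≠ 1) (hc : ∀ u ∈ U m K, z * u = u * z) : T = U m K := by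
  obtain ⟨a, b, rfl⟩ := center_form hm (hT.1 hz) hc
  set i0 : Fin m := ⟨0, by omega⟩
  set i1 : Fin m := ⟨1, by omega⟩
  have h01 : i0 < i1 := by simp [i0, i1, Fin.lt_def]
  obtain ⟨c, hc0, hcT⟩ : ∃ c ≠ 0, nu (single i0 i0 c) (E_symm i0 c) ∈ T := by
    by_cases hb : b = 0
    · subst hb
      have e : (single i0 i0 a + X i0 i1 0 : M) = single i0 i0 a := by simp [X]
      refine ⟨a, fun ha => hz1 ?_, by rw [nu_congr _ e] at hz; exact hz⟩
      subst ha
      refine Subtype.ext ?_
      simp [nu, X, fromBlocks_one]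
    by_cases h3 : 3 ≤ m
    · set i2 : Fin m := ⟨2, by omega⟩
      have h02 : i0 < i2 := by simp [i0, i2, Fin.lt_def]
      have h12 : i2 ≠ i1 := by simp [i1, i2, Fin.ext_iff]
      have k1 := hT.to_other h01 h02.ne' h12 hz
      have k2 := hT.to_tE h02 k1 1
      refine ⟨1 * b * b, by simp [hb], nu_sub_mem k2 k1 _ ?_⟩
      simp
    · obtain ⟨t, ht0, ht1⟩ : ∃ t : K, t ≠ 0 ∧ t ≠ 1 := by
        classical
        have : Fintype K := Fintype.ofFinite K
        have hcard := hq (by omega)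
        rw [Nat.card_eq_fintype_card] at hcard
        by_contra hne
        push Not at hne
        have : (Finset.univ : Finset K) ⊆ {0, 1} := fun k _ => by
          by_cases hk : k = 0
          · simp [hk]
          · simp [hne k hk]
        have := (Finset.card_le_card this).trans Finset.card_le_two
        simp at this; omega
      have k1 := hT.to_tE h01 hz t
      have k2 := hT.to_tE h01 k1 1
      refine ⟨1 * (t * b) * (t * b) - t * b * b, ?_, nu_sub_mem k2 k1 _ ?_⟩
      · rw [show 1 * (t * b) * (t * b) - t * b * b = t * (t - 1) * b * b by ring]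
        simp [ht0, hb, sub_ne_zero.2 ht1]
      · rw [← sub_eq_zero]
        ext x y
        simp [X, Matrix.single_apply]
        split_ifs <;> ring
  have hE := hT.all_E hc0 hcT
  refine le_antisymm hT.1 fun u hu => ?_
  obtain ⟨S, hS, A, hA, rfl⟩ := U_decomp hu
  refine mul_mem (hT.nu_all hE S hS) ?_
  have hle : Cfsg.Agent.Lib.Fusion.SLUpper.U m K ≤ T.comap phiSL := by
    refine Cfsg.Agent.Lib.Fusion.SLUpper.U_le_closure.trans ((Subgroup.closure_le _).2 ?_)
    rintro _ ⟨i, j, hij, d, rfl⟩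
    show phiSL _ ∈ T
    rw [phiSL_x]
    have h1 : nu (single i i 0 + X i j d) (XE_symm i j 0 d) ∈ T := hT.nu_all hE _ _
    have h2 := hT.2 _ h1 (w j) (w_conj hij.ne 0 d ▸ mul_mem (phi_mem (tv_UT hij d)) (nu_mem _ _))
    rw [w_conj hij.ne] at h2
    have h3 : nu (single i i (0 : K)) (E_symm i 0) = 1 := Subtype.ext (by simp [nu, fromBlocks_one])
    rwa [h3, mul_one] at h2
  exact hle hA

end closed


theorem pow_blocks {g : G} (hC : bC g = 0) : ∀ k : ℕ, bC (g ^ k) = 0 ∧ bA (g ^ k) = bA g ^ k := by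
  intro k
  induction k with
  | zero =>
    obtain ⟨e1, -, e3, -⟩ := one_blocks (m := m) (K := K)
    rw [pow_zero, pow_zero]; exact ⟨e3, e1⟩
  | succ k ih =>
    obtain ⟨h1, -, h3, -⟩ := mul_blocks (g ^ k) g
    rw [pow_succ, pow_succ (bA g)]
    exact ⟨by rw [h3, ih.1, hC]; simp, by rw [h1, ih.2, hC]; simp⟩

theorem tri_pow_diag {A : M} (hA : A.BlockTriangular id) (i : Fin m) :
    ∀ k : ℕ, (A ^ k).BlockTriangular id ∧ (A ^ k) i i = A i i ^ k := by
  intro k
  induction k with
  | zero => rw [pow_zero, pow_zero]; exact ⟨blockTriangular_one, by simp⟩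
  | succ k ih =>
    rw [pow_succ, pow_succ (A i i)]
    exact ⟨ih.1.mul hA, by rw [tri_mul_diag ih.1 hA, ih.2]⟩

/-- The Borel condition. -/
def InB (g : G) : Prop := bC g = 0 ∧ (bA g).BlockTriangular id

theorem InB.mul {g h : G} (hg : InB g) (hh : InB h) : InB (g * h) := by
  obtain ⟨h1, -, h3, -⟩ := mul_blocks g h
  exact ⟨by rw [h3, hg.1, hh.1]; simp, by rw [h1, hh.1]; simpa using hg.2.mul hh.2⟩

theorem InB.diag_ne {g : G} (hg : InB g) (i : Fin m) : bA g i i ≠ 0 := by
  intro h0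
  have h := congrArg Matrix.det (rel_AD hg.1)
  rw [det_mul, det_transpose, Matrix.det_of_upperTriangular hg.2, det_one,
    Finset.prod_eq_zero (f := fun l => bA g l l) (Finset.mem_univ i) h0, zero_mul] at h
  exact zero_ne_one h

section finite

variable [Finite K]

theorem U_inB {g : G} (hg : g ∈ U m K) : InB g := ⟨hg.1, hg.2.1⟩

variable (p : ℕ) [Fact p.Prime] [CharP K p]

theorem mem_U_of {g : G} (hg : InB g) (h : ∃ k : ℕ, g ^ p ^ k = 1) : g ∈ U m K := by
  obtain ⟨k, hk⟩ := h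
  refine ⟨hg.1, hg.2, fun i => Cfsg.Agent.Lib.Fusion.SLUpper.eq_one_of_pow_eq_one p (k := k) ?_⟩
  rw [← (tri_pow_diag hg.2 i _).2, ← (pow_blocks hg.1 _).2, hk, (one_blocks (m := m) (K := K)).1]
  simp

theorem nu_pow (S : M) (hS : S.IsSymm) : nu S hS ^ p = (1 : G) := by
  have : ∀ k : ℕ, ∃ h : ((k : K) • S).IsSymm, nu S hS ^ k = nu ((k : K) • S) h := by
    intro k
    refine ⟨hS.smul _, ?_⟩
    induction k with
    | zero => exact Subtype.ext (by simp [nu, fromBlocks_one])
    | succ k ih =>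
      rw [pow_succ, ih, nu_add]
      exact nu_congr _ (by push_cast; rw [add_smul, one_smul])
  obtain ⟨h, he⟩ := this p
  rw [he]
  exact Subtype.ext (by simp [nu, fromBlocks_one, CharP.cast_eq_zero K p])

theorem isPGroup_U : IsPGroup p (U m K) := by
  intro u
  obtain ⟨S, hS, A, hA, hu⟩ := U_decomp u.2
  obtain ⟨k, hk⟩ := Cfsg.Agent.Lib.Fusion.SLUpper.isPGroup_U p ⟨A, hA⟩
  set g : G := (u : G) ^ p ^ k with hg
  obtain ⟨hC, hAk⟩ := pow_blocks u.2.1 (p ^ k)
  have hk' : bA (u : G) ^ p ^ k = 1 := by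
    have hA' : bA (u : G) = (A : M) := by
      obtain ⟨n1, -, n3, -⟩ := nu_blocks S hS
      obtain ⟨q1, -, q3, -⟩ := phi_blocks (Matrix.SpecialLinearGroup.toGL A)
      rw [hu, (mul_blocks _ _).1, n1, show phiSL A = phi (Matrix.SpecialLinearGroup.toGL A) from rfl,
        q1, q3]
      simp
    rw [hA', ← Matrix.SpecialLinearGroup.coe_pow]
    exact congrArg Subtype.val (congrArg Subtype.val hk)
  rw [hk'] at hAk
  have hD : bD g = 1 := by simpa [hg, hAk] using rel_AD hC
  have hB : (bB g).IsSymm := by unfold Matrix.IsSymm; simpa [hD] using (rel g).2.1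
  obtain ⟨n1, n2, n3, n4⟩ := nu_blocks (bB g) hB
  have : g = nu (bB g) hB :=
    ext_blocks (hAk.trans n1.symm) n2.symm (hC.trans n3.symm) (hD.trans n4.symm)
  refine ⟨k + 1, Subtype.ext ?_⟩
  rw [SubmonoidClass.coe_pow, pow_succ p, pow_mul, ← hg, this, nu_pow p]
  rfl

omit [Fact p.Prime] [CharP K p]

/-- The vector condition of the `k`-th member of the flag. -/
def Wk (k : ℕ) (v : Fin m ⊕ Fin m → K) : Prop :=
  (∀ i, v (Sum.inr i) = 0) ∧ ∀ i : Fin m, k ≤ i.1 → v (Sum.inl i) = 0

theorem inB_of_normalizes {g : G} (hg : ∀ u ∈ U m K, g * u * g⁻¹ ∈ U m K) : InB g := by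
  have hinv : ∀ u ∈ U m K, g⁻¹ * u * g ∈ U m K := by
    intro u hu
    obtain ⟨u', hu'⟩ := Finite.surjective_of_injective
      (f := fun x : U m K => (⟨g * x * g⁻¹, hg x x.2⟩ : U m K))
      (fun a b h => Subtype.ext (by simpa using congrArg Subtype.val h)) ⟨u, hu⟩
    have h : g * (u' : G) * g⁻¹ = u := congrArg Subtype.val hu'
    rw [← h]
    simpa [mul_assoc] using u'.2
  have hdown : ∀ (k : ℕ) (u : G), u ∈ U m K → ∀ v, Wk (k + 1) v →
      Wk k ((u : Matrix (Fin m ⊕ Fin m) (Fin m ⊕ Fin m) K) *ᵥ v - v) := by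
    intro k u hu v hv
    have hv2 : v ∘ Sum.inr = 0 := funext hv.1
    rw [val_eq u, fromBlocks_mulVec, hu.1, hv2]
    refine ⟨fun i => by simp [hv.1], fun i hi => ?_⟩
    simp only [mulVec_zero, add_zero, Pi.sub_apply, Sum.elim_inl, sub_eq_zero]
    rw [Matrix.mulVec, dotProduct, Finset.sum_eq_single i (fun l _ hl => ?_) (by simp), hu.2.2,
      one_mul, Function.comp_apply]
    rcases lt_or_gt_of_ne hl with hli | hli
    · rw [hu.2.1 hli, zero_mul]
    · rw [Function.comp_apply, hv.2 l (by have := Fin.lt_def.1 hli; omega), mul_zero]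
  have hup : ∀ (k : ℕ), k < m → ∀ v,
      (∀ u ∈ U m K, Wk k ((u : Matrix (Fin m ⊕ Fin m) (Fin m ⊕ Fin m) K) *ᵥ v - v)) →
      Wk (k + 1) v := by
    intro k hk v hv
    have hy : ∀ i, v (Sum.inr i) = 0 := by
      intro i
      by_cases hi : k ≤ i.1
      · have h := (hv _ (nu_mem _ (E_symm i (1 : K)))).2 i hi
        simpa [nu, fromBlocks_mulVec, Matrix.mulVec, dotProduct, Matrix.single_apply] using h
      · have hne : i ≠ ⟨k, hk⟩ := Fin.ne_of_val_ne (show i.1 ≠ k by omega)
        have h := (hv _ (nu_mem _ (X_symm i ⟨k, hk⟩ (1 : K)))).2 ⟨k, hk⟩ le_rfl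
        simpa [nu, X, fromBlocks_mulVec, Matrix.mulVec, dotProduct, Matrix.single_apply, hne]
          using h
    refine ⟨hy, fun l hl => ?_⟩
    have hkl : (⟨k, hk⟩ : Fin m) < l := Fin.lt_def.2 (show k < l.1 by omega)
    have h := (hv _ (phi_mem (tv_UT hkl (1 : K)))).2 ⟨k, hk⟩ le_rfl
    rw [phi_val, fromBlocks_mulVec] at h
    simpa [tv_val, Matrix.add_mulVec, Matrix.mulVec, dotProduct, Matrix.single_apply,
      Matrix.add_apply, add_mul, Finset.sum_add_distrib, Matrix.one_apply] using h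
  have hflag : ∀ k : ℕ, k ≤ m → ∀ v, Wk k v →
      Wk k ((g : Matrix (Fin m ⊕ Fin m) (Fin m ⊕ Fin m) K) *ᵥ v) := by
    intro k
    induction k with
    | zero =>
      intro _ v hv
      have : v = 0 := funext fun x => x.rec (fun i => hv.2 i (Nat.zero_le _)) hv.1
      subst this
      simp [Wk]
    | succ k ih =>
      intro hk v hv
      refine hup k (by omega) _ fun u hu => ?_
      have e : (u : Matrix (Fin m ⊕ Fin m) (Fin m ⊕ Fin m) K) *ᵥ
          ((g : Matrix (Fin m ⊕ Fin m) (Fin m ⊕ Fin m) K) *ᵥ v) =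
          (g : Matrix (Fin m ⊕ Fin m) (Fin m ⊕ Fin m) K) *ᵥ
            (((g⁻¹ * u * g : G) : Matrix (Fin m ⊕ Fin m) (Fin m ⊕ Fin m) K) *ᵥ v) := by
        rw [mulVec_mulVec, mulVec_mulVec, ← Submonoid.coe_mul, ← Submonoid.coe_mul]
        congr 2
        group
      rw [e, ← mulVec_sub]
      exact ih (by omega) _ (hdown k _ (hinv u hu) v hv)
  have key : ∀ a : Fin m, Wk (a.1 + 1)
      ((g : Matrix (Fin m ⊕ Fin m) (Fin m ⊕ Fin m) K) *ᵥ Pi.single (Sum.inl a) 1) := by
    intro a
    refine hflag _ a.2 _ ⟨fun i => by simp, fun i hi => ?_⟩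
    simp [show i ≠ a from Fin.ne_of_val_ne (by omega)]
  refine ⟨Matrix.ext fun i a => ?_, fun i a hia => ?_⟩
  · have h := (key a).1 i
    rw [mulVec_single_one] at h
    exact h
  · have h := (key a).2 i hia
    rw [mulVec_single_one] at h
    exact h

end finite

theorem comm_nu_blocks {g : G} {S : M} {hS : S.IsSymm} (h : g * nu S hS = nu S hS * g) :
    S * bC g = 0 ∧ bA g * S = S * bD g := by
  obtain ⟨n1, n2, n3, n4⟩ := nu_blocks S hS
  refine ⟨?_, ?_⟩
  · have e := congrArg bA h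
    rw [(mul_blocks _ _).1, (mul_blocks _ _).1, n1, n2, n3] at e
    simpa using e
  · have e := congrArg bB h
    rw [(mul_blocks _ _).2.1, (mul_blocks _ _).2.1, n1, n2, n4] at e
    simp only [mul_one, one_mul] at e
    rw [add_comm (bB g)] at e
    exact add_right_cancel e

/-- Members of the centralizer of enough Siegel elements. -/
theorem inB_of_comm {g : G} (hm : 2 ≤ m) {l : Fin m}
    (h : ∀ (S : M) (hS : S.IsSymm), S l l = 0 → g * nu S hS = nu S hS * g) :
    InB g ∨ ¬(∀ i : Fin m, i ≤ l) := by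
  by_cases hl : ∀ i : Fin m, i ≤ l
  swap
  · exact Or.inr hl
  left
  obtain ⟨j0, hj0⟩ : ∃ j0 : Fin m, j0 ≠ l := by
    have : Nontrivial (Fin m) := Fin.nontrivial_iff_two_le.2 hm
    exact exists_ne l
  have hE : ∀ j, j ≠ l → g * nu _ (E_symm j (1 : K)) = nu _ (E_symm j 1) * g := fun j hj =>
    h _ _ (by simp [hj])
  have hX : ∀ j, j ≠ l → g * nu _ (X_symm j l (1 : K)) = nu _ (X_symm j l 1) * g := fun j hj =>
    h _ _ (by simp [X, hj, hj.symm])
  refine ⟨Matrix.ext fun i a => ?_, fun i a hia => ?_⟩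
  · by_cases hi : i = l
    · subst hi
      have e := congrFun (congrFun (comm_nu_blocks (hX j0 hj0)).1 j0) a
      simpa [X, Matrix.add_mul, hj0] using e
    · have e := congrFun (congrFun (comm_nu_blocks (hE i hi)).1 i) a
      simpa using e
  · have ha : a ≠ l := fun e => absurd hia (not_lt.2 (e ▸ hl i))
    have e := congrFun (congrFun (comm_nu_blocks (hE a ha)).2 i) a
    have hia' : i ≠ a := (ne_of_gt hia)
    simpa [Matrix.single_mul_apply_of_ne _ _ _ _ _ hia'] using e

theorem diag_of_comm {g : G} {l : Fin m} (hl : ∀ i : Fin m, i ≤ l) (hg : InB g)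
    (h : ∀ (S : M) (hS : S.IsSymm), S l l = 0 → g * nu S hS = nu S hS * g) :
    ∀ j, bA g j j = bA g l l ∧ (j ≠ l → bA g j j * bA g j j = 1) := by
  intro j
  by_cases hj : j = l
  · subst hj; simp
  have hjl : j < l := lt_of_le_of_ne (hl j) hj
  have eE := (comm_nu_blocks (h _ (E_symm j (1 : K)) (by simp [hj]))).2
  have eX := (comm_nu_blocks (h _ (X_symm j l (1 : K)) (by simp [X, hj, Ne.symm hj]))).2
  have e1 : bA g j j = bD g j j := by simpa using congrFun (congrFun eE j) j
  have e2 : bA g l l = bD g j j := by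
    simpa [X, Matrix.add_mul, Matrix.mul_add, hj, Ne.symm hj] using congrFun (congrFun eX l) j
  refine ⟨e1.trans e2.symm, fun _ => ?_⟩
  have hcol : ∀ i, i ≠ j → bA g i j = 0 := fun i hi => by
    simpa [Matrix.single_mul_apply_of_ne _ _ _ _ _ hi] using congrFun (congrFun eE i) j
  have e := congrFun (congrFun (rel_AD hg.1) j) j
  rw [Matrix.mul_apply, Finset.sum_eq_single j (fun i _ hi => by
    rw [transpose_apply, hcol i hi, zero_mul]) (by simp), transpose_apply, ← e1,
    Matrix.one_apply_eq] at e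
  exact e

/-- A scalar of square one, in the centre. -/
def scal (a : K) (ha : a * a = 1) : G :=
  ⟨fromBlocks (a • 1) 0 0 (a • 1), SymplecticGroup.fromBlocks_mem_iff.2
    ⟨by simp, by simp, by simp [smul_smul, ha]⟩⟩

theorem scal_blocks (a : K) (ha : a * a = 1) :
    bA (scal a ha : G) = a • 1 ∧ bB (scal a ha : G) = 0 ∧ bC (scal a ha : G) = 0 ∧
      bD (scal a ha : G) = a • 1 := blocks_of_eq rfl

theorem scal_center (a : K) (ha : a * a = 1) : (scal a ha : G) ∈ Subgroup.center G := by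
  rw [Subgroup.mem_center_iff]
  intro g
  refine Subtype.ext ?_
  rw [Submonoid.coe_mul, Submonoid.coe_mul, val_eq g]
  simp [scal, fromBlocks_multiply]

section finite2

variable [Finite K]

theorem mul_scal_mem_U {g : G} (hg : InB g) {a : K} (ha : a * a = 1) (h : ∀ i, bA g i i = a) :
    scal a ha * g ∈ U m K := by
  obtain ⟨s1, s2, s3, s4⟩ := scal_blocks (m := m) a ha
  obtain ⟨h1, -, h3, -⟩ := mul_blocks (scal a ha : G) g
  refine ⟨by rw [h3, s3, s4, hg.1]; simp, ?_⟩
  rw [h1, s1, s2]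
  refine ⟨?_, fun i => by simp [h i, ha]⟩
  intro x y hxy
  simp [hg.2 hxy]

/-- Siegel radical. -/
def Q : Subgroup G where
  carrier := {g : G | g ∈ U m K ∧ bA g = 1}
  one_mem' := ⟨one_mem _, (one_blocks (m := m) (K := K)).1⟩
  mul_mem' {a b} ha hb := ⟨mul_mem ha.1 hb.1, by
    rw [(mul_blocks a b).1, ha.2, hb.2, hb.1.1]; simp⟩
  inv_mem' {a} ha := ⟨inv_mem ha.1, by
    obtain ⟨h1, -⟩ := mul_blocks a a⁻¹
    rw [mul_inv_cancel, ha.2, (inv_mem ha.1).1, (one_blocks (m := m) (K := K)).1] at h1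
    simpa using h1.symm⟩

/-- The radical of the minimal parabolic at the long simple root. -/
def R (l : Fin m) (hl : ∀ i : Fin m, i ≤ l) : Subgroup G where
  carrier := {g : G | g ∈ U m K ∧ bB g l l = 0}
  one_mem' := ⟨one_mem _, by rw [(one_blocks (m := m) (K := K)).2.1]; rfl⟩
  mul_mem' {a b} ha hb := ⟨mul_mem ha.1 hb.1, by
    rw [(mul_blocks a b).2.1, Matrix.add_apply, row_mul ha.1 hl (bB b), col_mul hb.1 hl (bB a), hb.2,
      ha.2, add_zero]⟩
  inv_mem' {a} ha := ⟨inv_mem ha.1, by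
    obtain ⟨-, h2, -⟩ := mul_blocks a a⁻¹
    have h := congrFun (congrFun h2 l) l
    rw [mul_inv_cancel, (one_blocks (m := m) (K := K)).2.1, Matrix.zero_apply, Matrix.add_apply,
      row_mul ha.1 hl, col_mul (inv_mem ha.1) hl, ha.2, add_zero] at h
    exact h.symm⟩
where
  row_mul {a : G} (ha : a ∈ U m K) {l : Fin m} (hl : ∀ i : Fin m, i ≤ l) (B : M) :
      (bA a * B) l l = B l l := by
    rw [Matrix.mul_apply, Finset.sum_eq_single l (fun i _ hi => ?_) (by simp), ha.2.2, one_mul]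
    rw [ha.2.1 (lt_of_le_of_ne (hl i) hi), zero_mul]
  col_mul {a : G} (ha : a ∈ U m K) {l : Fin m} (hl : ∀ i : Fin m, i ≤ l) (B : M) :
      (B * bD a) l l = B l l := by
    have e : ∀ i, bD a i l = if i = l then 1 else 0 := by
      intro i
      have hrow : ∀ j, bA a l j = if j = l then 1 else 0 := fun j => by
        split_ifs with hj
        · subst hj; exact ha.2.2 _
        · exact ha.2.1 (lt_of_le_of_ne (hl j) hj)
      have hv : (bA a)ᵀ *ᵥ (Pi.single l 1 : Fin m → K) = Pi.single l 1 := by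
        rw [mulVec_single_one]
        ext j
        simp [transpose_apply, hrow, Pi.single_apply]
      have h2 : bD a * (bA a)ᵀ = 1 := mul_eq_one_comm.1 (rel_AD ha.1)
      have h3 := congrArg (fun v => bD a *ᵥ v) hv
      simp only [mulVec_mulVec, h2, one_mulVec] at h3
      rw [mulVec_single_one] at h3
      rw [← Pi.single_apply l (1 : K) i, h3]
      rfl
    rw [Matrix.mul_apply, Finset.sum_congr rfl fun i _ => by rw [e i]]
    simp

theorem cent_Q {g : G} (hm : 2 ≤ m) (h : ∀ r ∈ Q (m := m) (K := K), g * r = r * g) :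
    ∃ (a : K) (ha : a * a = 1), scal a ha * g ∈ Q (m := m) (K := K) := by
  set l : Fin m := ⟨m - 1, by omega⟩
  have hl : ∀ i : Fin m, i ≤ l := fun i => Fin.le_def.2 (show i.1 ≤ m - 1 by omega)
  have hnu : ∀ (S : M) (hS : S.IsSymm), g * nu S hS = nu S hS * g := fun S hS =>
    h _ ⟨nu_mem _ _, (nu_blocks _ _).1⟩
  have hB : InB g := (inB_of_comm hm fun S hS _ => hnu S hS).resolve_right (not_not.2 hl)
  have hd := diag_of_comm hl hB fun S hS _ => hnu S hS
  have hne : (⟨0, by omega⟩ : Fin m) ≠ l := Fin.ne_of_val_ne (show 0 ≠ m - 1 by omega)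
  set a := bA g l l
  have ha : a * a = 1 := by
    have := (hd ⟨0, by omega⟩).2 hne
    rwa [(hd ⟨0, by omega⟩).1] at this
  refine ⟨a, ha, mul_scal_mem_U hB ha fun i => (hd i).1, ?_⟩
  rw [(mul_blocks _ _).1, (scal_blocks (m := m) a ha).1, hB.1]
  ext i j
  by_cases hij : i = j
  · subst hij; simp [(hd i).1, ha]
  · have e := congrFun (congrFun (comm_nu_blocks (hnu _ (E_symm j (1 : K)))).2 i) j
    simp [Matrix.single_mul_apply_of_ne _ _ _ _ _ hij] at e
    simp [hij, e]

theorem cent_R {g : G} (hm : 2 ≤ m) {l : Fin m} (hl : ∀ i : Fin m, i ≤ l)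
    (h : ∀ r ∈ R l hl (K := K), g * r = r * g) :
    ∃ (a : K) (ha : a * a = 1), scal a ha * g ∈ R l hl (K := K) := by
  have hnu : ∀ (S : M) (hS : S.IsSymm), S l l = 0 → g * nu S hS = nu S hS * g := fun S hS h0 =>
    h _ ⟨nu_mem _ _, by rw [(nu_blocks _ _).2.1]; exact h0⟩
  have hB : InB g := (inB_of_comm hm hnu).resolve_right (not_not.2 hl)
  have hd := diag_of_comm hl hB hnu
  obtain ⟨i0, hne⟩ : ∃ i0 : Fin m, i0 ≠ l := by
    have : Nontrivial (Fin m) := Fin.nontrivial_iff_two_le.2 hm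
    exact exists_ne l
  have hlt : i0 < l := lt_of_le_of_ne (hl i0) hne
  set a := bA g l l
  have ha : a * a = 1 := by have := (hd i0).2 hne; rwa [(hd i0).1] at this
  refine ⟨a, ha, mul_scal_mem_U hB ha fun i => (hd i).1, ?_⟩
  have hcomm := congrArg bB (h (phi (tv hlt.ne (1 : K)))
    ⟨phi_mem (tv_UT hlt 1), by rw [(phi_blocks _).2.1]; rfl⟩)
  obtain ⟨q1, q2, q3, q4⟩ := phi_blocks (tv hlt.ne (1 : K))
  rw [(mul_blocks _ _).2.1, (mul_blocks _ _).2.1, q1, q2, q4] at hcomm
  have e := congrFun (congrFun hcomm i0) l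
  have hi : (((tv hlt.ne (1 : K))⁻¹ : GL (Fin m) K) : M) = 1 + single i0 l (-1) := rfl
  simp [hi, tv_val, Matrix.mul_add, Matrix.add_mul, transpose_single, hne, Ne.symm hne] at e
  rw [(mul_blocks _ _).2.1, (scal_blocks (m := m) a ha).1, (scal_blocks (m := m) a ha).2.1]
  simp [e]

theorem phi_conj_Q (P : GL (Fin m) K) {r : G} (hr : r ∈ Q (m := m) (K := K)) :
    phi P * r * (phi P)⁻¹ ∈ Q (m := m) (K := K) := by
  have hD : bD r = 1 := by simpa [hr.2] using rel_AD hr.1.1
  have hS : (bB r).IsSymm := by unfold Matrix.IsSymm; simpa [hD] using (rel r).2.1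
  obtain ⟨n1, n2, n3, n4⟩ := nu_blocks (bB r) hS
  rw [ext_blocks (hr.2.trans n1.symm) n2.symm (hr.1.1.trans n3.symm) (hD.trans n4.symm), phi_conj_nu]
  exact ⟨nu_mem _ _, (nu_blocks _ _).1⟩

theorem U_conj_Q {u r : G} (hu : u ∈ U m K) (hr : r ∈ Q (m := m) (K := K)) :
    u * r * u⁻¹ ∈ Q (m := m) (K := K) := by
  refine ⟨mul_mem (mul_mem hu hr.1) (inv_mem hu), ?_⟩
  rw [(mul_blocks _ _).1, (mul_blocks u r).1, hr.1.1, hr.2, (inv_mem hu).1]
  have e := (mul_blocks u u⁻¹).1
  rw [mul_inv_cancel, (inv_mem hu).1, (one_blocks (m := m) (K := K)).1] at e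
  simpa using e.symm

theorem U_conj_R {l : Fin m} (hl : ∀ i : Fin m, i ≤ l) {u r : G} (hu : u ∈ U m K)
    (hr : r ∈ R l hl (K := K)) : u * r * u⁻¹ ∈ R l hl (K := K) := by
  refine ⟨mul_mem (mul_mem hu hr.1) (inv_mem hu), ?_⟩
  rw [(mul_blocks _ _).2.1, Matrix.add_apply, R.row_mul (mul_mem hu hr.1) hl,
    R.col_mul (inv_mem hu) hl, (mul_blocks u r).2.1, Matrix.add_apply, R.row_mul hu hl,
    R.col_mul hr.1 hl, hr.2, zero_add]
  have e := congrFun (congrFun (mul_blocks u u⁻¹).2.1 l) l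
  rw [mul_inv_cancel, (one_blocks (m := m) (K := K)).2.1, Matrix.zero_apply, Matrix.add_apply,
    R.row_mul hu hl, R.col_mul (inv_mem hu) hl] at e
  exact e.symm

end finite2

/-- The lower long root element. -/
def lw (l : Fin m) (c : K) : G :=
  ⟨fromBlocks 1 0 (single l l c) 1, SymplecticGroup.fromBlocks_mem_iff.2
    ⟨by simp [transpose_single], by simp, by simp⟩⟩

theorem lw_add (l : Fin m) (c d : K) : (lw l c : G) * lw l d = lw l (c + d) := by
  refine Subtype.ext ?_
  rw [Submonoid.coe_mul]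
  simp [lw, fromBlocks_multiply, single_add, add_comm]

theorem lw_pow (p : ℕ) [CharP K p] (l : Fin m) (c : K) : (lw l c : G) ^ p = 1 := by
  have : ∀ k : ℕ, (lw l c : G) ^ k = lw l (k * c) := by
    intro k
    induction k with
    | zero => exact Subtype.ext (by simp [lw, fromBlocks_one])
    | succ k ih =>
      rw [pow_succ, ih, lw_add]
      push_cast; rw [add_mul, one_mul]
  rw [this, CharP.cast_eq_zero K p, zero_mul]
  exact Subtype.ext (by simp [lw, fromBlocks_one])

theorem lw_conj_R [Finite K] {l : Fin m} (hl : ∀ i : Fin m, i ≤ l) (c : K) {r : G}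
    (hr : r ∈ R l hl (K := K)) : lw l c * r * (lw l c)⁻¹ ∈ R l hl (K := K) := by
  obtain ⟨hrU, hr0⟩ := hr
  have hinv : (lw l c : G)⁻¹ = lw l (-c) := inv_eq_of_mul_eq_one_right (by
    rw [lw_add, add_neg_cancel]; exact Subtype.ext (by simp [lw, fromBlocks_one]))
  set r' := lw l c * r * (lw l c)⁻¹
  have hv : (r' : Matrix (Fin m ⊕ Fin m) (Fin m ⊕ Fin m) K) =
      fromBlocks (bA r + bB r * single l l (-c)) (bB r)
        (single l l c * bA r + (single l l c * bB r + bD r) * single l l (-c))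
        (single l l c * bB r + bD r) := by
    simp only [r', hinv, Submonoid.coe_mul]
    rw [val_eq r]
    simp [lw, fromBlocks_multiply, hrU.1]
  obtain ⟨h1, h2, h3, -⟩ := blocks_of_eq hv
  have hrow : ∀ j, bA r l j = if j = l then 1 else 0 := fun j => by
    split_ifs with hj
    · subst hj; exact hrU.2.2 _
    · exact hrU.2.1 (lt_of_le_of_ne (hl j) hj)
  have hcol : ∀ i, bD r i l = if i = l then 1 else 0 := fun i => by
    have := R.col_mul hrU hl (single l i (1 : K))
    simpa [Matrix.single_apply, eq_comm] using this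
  refine ⟨⟨?_, ?_, ?_⟩, by rw [h2]; exact hr0⟩
  · rw [h3]
    ext x y
    by_cases hx : x = l <;> by_cases hy : y = l <;>
      simp [hx, hy, hrow, hcol, hr0, Matrix.add_mul, Matrix.mul_add, Matrix.single_mul_apply_of_ne,
        Matrix.mul_single_apply_of_ne]
  · intro x y hxy
    have hy : y ≠ l := fun e => absurd hxy (not_lt.2 (e ▸ hl x))
    rw [h1, Matrix.add_apply, hrU.2.1 hxy, Matrix.mul_single_apply_of_ne _ _ _ _ _ hy, add_zero]
  · intro i
    rw [h1, Matrix.add_apply, hrU.2.2]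
    by_cases hi : i = l
    · subst hi; simp [hr0]
    · simp [Matrix.mul_single_apply_of_ne _ _ _ _ _ hi]

/-- The diagonal torus. -/
def diagGL : (Fin m → Kˣ) →* GL (Fin m) K :=
  (Units.map (Matrix.diagonalRingHom (Fin m) K).toMonoidHom).comp
    MulEquiv.piUnits.symm.toMonoidHom

theorem diagGL_val (d : Fin m → Kˣ) :
    ((diagGL d : GL (Fin m) K) : M) = Matrix.diagonal (fun i => (d i : K)) := rfl

theorem long_torus (l : Fin m) (t : Kˣ) :
    phi (diagGL (Pi.mulSingle l t)) =
      nu (single l l (t : K)) (E_symm _ _) * lw l (-((t⁻¹ : Kˣ) : K)) *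
        nu (single l l (t : K)) (E_symm _ _) *
        nu (single l l (-1 : K)) (E_symm _ _) * lw l 1 * nu (single l l (-1 : K)) (E_symm _ _) := by
  refine Subtype.ext ?_
  simp only [Submonoid.coe_mul, phi_val, nu, lw, fromBlocks_multiply]
  have hinv : (((diagGL (Pi.mulSingle l t))⁻¹ : GL (Fin m) K) : M) =
      Matrix.diagonal (fun i => (((Pi.mulSingle l t : Fin m → Kˣ)⁻¹ i : Kˣ) : K)) := by
    rw [← map_inv]; rfl
  rw [hinv, diagGL_val, fromBlocks_inj]
  simp [Matrix.add_mul, Matrix.mul_add]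
  refine ⟨?_, ?_, ?_, ?_⟩ <;> ext i j <;> by_cases hij : i = j <;> by_cases hi : i = l <;>
    simp_all [Matrix.single_apply, Matrix.diagonal, Matrix.one_apply, Pi.mulSingle_apply, eq_comm] <;>
    ring

end Cfsg.Agent.Lib.GS.SpBorel
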