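import Mathlib
import Cfsg.Agent.Lib.Fusion.SLUpper

/-!
The antidiagonal special unitary group: root elements, unipotent radicals, closed subsets.
-/

set_option autoImplicit false

namespace Cfsg.Agent.Lib.GS.SuBorel

open Matrix
open Cfsg.Agent.Lib.Fusion

variable {n : ℕ} {F : Type*} [Field F] (σ : F →+* F)

local notation "Γ" => Matrix.SpecialLinearGroup (Fin n) F
local notation "M" => Matrix (Fin n) (Fin n) F

/-- The adjoint for the antidiagonal Hermitian form. -/
def st (A : M) : M := Matrix.of fun i j => σ (A j.rev i.rev)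

theorem st_mul (A B : M) : st σ (A * B) = st σ B * st σ A := by
  ext i j
  simp only [st, Matrix.of_apply, Matrix.mul_apply, map_sum, map_mul]
  exact Fintype.sum_equiv Fin.revPerm _ _ fun l => by simp [mul_comm]

theorem st_one : st σ (1 : M) = 1 := by
  ext i j
  simp [st, Matrix.one_apply, apply_ite σ, eq_comm]

theorem st_add (A B : M) : st σ (A + B) = st σ A + st σ B := by
  ext i j; simp [st]

theorem st_single (i j : Fin n) (t : F) : st σ (single i j t) = single j.rev i.rev (σ t) := by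
  ext a b
  simp only [st, Matrix.of_apply, Matrix.single_apply]
  have h : (i = b.rev ∧ j = a.rev) ↔ (j.rev = a ∧ i.rev = b) := by
    rw [Fin.rev_eq_iff, Fin.rev_eq_iff]; exact and_comm
  by_cases h1 : j.rev = a ∧ i.rev = b
  · rw [if_pos (h.2 h1), if_pos h1]
  · rw [if_neg (mt h.1 h1), if_neg h1, map_zero]

variable (n) in
/-- The special unitary group of the antidiagonal form. -/
def Ga : Subgroup Γ where
  carrier := {g : Γ | st σ (g : M) * (g : M) = 1}
  one_mem' := by simp [st_one]
  mul_mem' {a b} ha hb := by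
    show st σ ((a * b : Γ) : M) * _ = 1
    rw [Matrix.SpecialLinearGroup.coe_mul, st_mul, mul_assoc, ← mul_assoc (st σ (a : M)), ha, one_mul, hb]
  inv_mem' {a} ha := by
    show st σ ((a⁻¹ : Γ) : M) * _ = 1
    have h1 : (a : M) * ((a⁻¹ : Γ) : M) = 1 := by
      rw [← Matrix.SpecialLinearGroup.coe_mul, mul_inv_cancel, Matrix.SpecialLinearGroup.coe_one]
    have h2 : st σ (a : M) = ((a⁻¹ : Γ) : M) := by
      rw [← mul_one (st σ (a : M)), ← h1, ← mul_assoc, ha, one_mul]
    have h3 := congrArg (st σ) h1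
    rw [st_mul, st_one, h2] at h3
    exact h3

theorem mem_Ga {g : Γ} : g ∈ Ga n σ ↔ st σ (g : M) * (g : M) = 1 := Iff.rfl

theorem Ga_mul_st {g : Γ} (hg : g ∈ Ga n σ) : (g : M) * st σ (g : M) = 1 := mul_eq_one_comm.1 hg

/-! ### Radicals -/

/-- Identity plus a part strictly above the blocks of `f`. -/
def Strict {α : Type*} [LinearOrder α] (f : Fin n → α) (A : M) : Prop :=
  ∀ a b, f b ≤ f a → A a b = (1 : M) a b

theorem Strict.mul {α : Type*} [LinearOrder α] {f : Fin n → α} {A B : M} (hA : Strict f A)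
    (hB : Strict f B) : Strict f (A * B) := by
  intro a b hab
  rw [Matrix.mul_apply, Finset.sum_eq_single a (fun l _ hl => ?_) (by simp), hA a a le_rfl,
    Matrix.one_apply_eq, one_mul, hB a b hab]
  by_cases h : f l ≤ f a
  · rw [hA a l h, Matrix.one_apply_ne (Ne.symm hl), zero_mul]
  · rw [hB l b (hab.trans (not_le.1 h).le), Matrix.one_apply_ne, mul_zero]
    rintro rfl; exact h hab

/-- The radical of a block decomposition. -/
def Rad [Finite F] {α : Type*} [LinearOrder α] (f : Fin n → α) : Subgroup Γ where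
  carrier := {g : Γ | g ∈ Ga n σ ∧ Strict f (g : M)}
  one_mem' := ⟨one_mem _, fun a b _ => by simp⟩
  mul_mem' {a b} ha hb := ⟨mul_mem ha.1 hb.1, by
    rw [Matrix.SpecialLinearGroup.coe_mul]; exact ha.2.mul hb.2⟩
  inv_mem' {a} ha := ⟨inv_mem ha.1, by
    have hpow : ∀ k : ℕ, Strict f ((a ^ k : Γ) : M) := by
      intro k
      induction k with
      | zero => rw [pow_zero]; exact fun i j _ => by simp
      | succ k ih => rw [pow_succ a k, Matrix.SpecialLinearGroup.coe_mul]; exact ih.mul ha.2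
    have : a⁻¹ = a ^ (orderOf a - 1) := inv_eq_of_mul_eq_one_right (by
      rw [← pow_succ', Nat.sub_add_cancel (orderOf_pos a), pow_orderOf_eq_one])
    rw [this]
    exact hpow _⟩

theorem conj_mem_Rad [Finite F] {α : Type*} [LinearOrder α] {f : Fin n → α} {g r : Γ} (hgG : g ∈ Ga n σ)
    (hg : (g : M).BlockTriangular f) (hg' : ((g⁻¹ : Γ) : M).BlockTriangular f) (hr : r ∈ Rad σ f) :
    g * r * g⁻¹ ∈ Rad σ f := by
  refine ⟨mul_mem (mul_mem hgG hr.1) (inv_mem hgG), fun a b hab => ?_⟩
  set N : M := (r : M) - 1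
  have hN : ∀ a b, f b ≤ f a → N a b = 0 := fun a b h => by
    simp only [N, Matrix.sub_apply, hr.2 a b h, sub_self]
  have h1 : ((g * r * g⁻¹ : Γ) : M) = 1 + (g : M) * N * ((g⁻¹ : Γ) : M) := by
    have h2 : (g : M) * ((g⁻¹ : Γ) : M) = 1 := by
      rw [← Matrix.SpecialLinearGroup.coe_mul, mul_inv_cancel, Matrix.SpecialLinearGroup.coe_one]
    simp only [Matrix.SpecialLinearGroup.coe_mul, N, Matrix.mul_sub, Matrix.sub_mul, Matrix.mul_one,
      h2, add_sub_cancel]
  rw [h1, Matrix.add_apply, Matrix.mul_apply, Finset.sum_eq_zero (fun l _ => ?_), add_zero]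
  rw [Matrix.mul_apply, Finset.sum_mul]
  refine Finset.sum_eq_zero fun k _ => ?_
  by_cases h3 : f k < f a
  · rw [hg h3, zero_mul, zero_mul]
  by_cases h4 : f b < f l
  · rw [hg' h4, mul_zero]
  rw [hN k l ((not_lt.1 h4).trans (hab.trans (not_lt.1 h3))), mul_zero, zero_mul]

variable (n) in
/-- The unipotent group `U`. -/
def U [Finite F] : Subgroup Γ := Rad σ (id : Fin n → Fin n)

theorem mem_U [Finite F] {g : Γ} : g ∈ U n σ ↔ g ∈ Ga n σ ∧ g ∈ SLUpper.U n F := by
  refine ⟨fun h => ⟨h.1, fun a b hab => ?_, fun a => ?_⟩, fun h => ⟨h.1, fun a b hab => ?_⟩⟩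
  · rw [h.2 a b (le_of_lt hab)]; exact Matrix.one_apply_ne (ne_of_gt (show b < a from hab))
  · rw [h.2 a a le_rfl, Matrix.one_apply_eq]
  · rcases (show b ≤ a from hab).eq_or_lt with rfl | hlt
    · rw [h.2.2 b, Matrix.one_apply_eq]
    · rw [h.2.1 hlt, Matrix.one_apply_ne hlt.ne']

theorem Rad_le_U [Finite F] {α : Type*} [LinearOrder α] {f : Fin n → α} (hf : Monotone f) :
    Rad σ f ≤ U n σ := fun _ hg => ⟨hg.1, fun a b hab => hg.2 a b (hf hab)⟩

/-! ### Root elements -/

/-- Short root element. -/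
def sh {i j : Fin n} (h : i ≠ j) (t : F) : Γ :=
  SLUpper.x h t * SLUpper.x (Fin.rev_injective.ne h.symm) (-σ t)

theorem sh_val {i j : Fin n} (h : i ≠ j) (hj : j ≠ j.rev) (t : F) :
    (sh σ h t : M) = 1 + (single i j t + single j.rev i.rev (-σ t)) := by
  rw [sh, Matrix.SpecialLinearGroup.coe_mul, SLUpper.x, SLUpper.x, SpecialLinearGroup.transvection_coe,
    SpecialLinearGroup.transvection_coe]
  simp [Matrix.add_mul, Matrix.mul_add, hj]
  abel

variable (hσ : ∀ x : F, σ (σ x) = x)
include hσ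

theorem sh_mem {i j : Fin n} (h : i ≠ j) (hi : i ≠ i.rev) (hj : j ≠ j.rev) (t : F) :
    sh σ h t ∈ Ga n σ := by
  rw [mem_Ga, sh_val σ h hj, st_add, st_add, st_one, st_single, st_single, Fin.rev_rev, Fin.rev_rev,
    map_neg, hσ]
  simp [Matrix.add_mul, Matrix.mul_add, hj, hi, hi.symm, hj.symm, h, h.symm]
  ext a b
  simp [Matrix.single_apply]
  split_ifs <;> ring

omit hσ

theorem sh_zero {i j : Fin n} (h : i ≠ j) : (sh σ h 0 : Γ) = 1 := by
  simp [sh, SLUpper.x, SpecialLinearGroup.transvection_coeff_zero]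

/-- Long root element. -/
abbrev lg {i : Fin n} (h : i ≠ i.rev) (c : F) : Γ := SLUpper.x h c

theorem lg_mem {i : Fin n} (h : i ≠ i.rev) {c : F} (hc : σ c = -c) : lg h c ∈ Ga n σ := by
  rw [mem_Ga, lg, SLUpper.x, SpecialLinearGroup.transvection_coe, st_add, st_one, st_single, Fin.rev_rev, hc]
  simp [Matrix.add_mul, Matrix.mul_add, h.symm]
  rw [add_assoc, ← single_add]
  simp

/-- Root element through the middle. -/
def md {i k : Fin n} (hi : i ≠ i.rev) (hik : i ≠ k) (hk' : k ≠ i.rev) (t s : F) : Γ :=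
  SLUpper.x hi (s + t * σ t) * (SLUpper.x hik t * SLUpper.x hk' (-σ t))

theorem md_val {i k : Fin n} (hi : i ≠ i.rev) (hik : i ≠ k) (hk' : k ≠ i.rev) (t s : F) :
    (md σ hi hik hk' t s : M) =
      1 + (single i k t + single k i.rev (-σ t) + single i i.rev s) := by
  rw [md, Matrix.SpecialLinearGroup.coe_mul, Matrix.SpecialLinearGroup.coe_mul, SLUpper.x, SLUpper.x,
    SLUpper.x, SpecialLinearGroup.transvection_coe, SpecialLinearGroup.transvection_coe,
    SpecialLinearGroup.transvection_coe]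
  simp [Matrix.add_mul, Matrix.mul_add, hi.symm, hik, hik.symm, hk', hk'.symm]
  ext a b
  simp [Matrix.single_apply]
  split_ifs <;> ring

theorem md_mem (hσ : ∀ x : F, σ (σ x) = x) {i k : Fin n} (hi : i ≠ i.rev) (hik : i ≠ k)
    (hk' : k ≠ i.rev) (hk : k.rev = k) {t s : F} (hs : s + σ s + t * σ t = 0) :
    md σ hi hik hk' t s ∈ Ga n σ := by
  rw [mem_Ga, md_val, st_add, st_add, st_add, st_one, st_single, st_single, st_single, Fin.rev_rev, hk,
    map_neg, hσ]
  simp [Matrix.add_mul, Matrix.mul_add, hi, hi.symm, hik, hik.symm, hk', hk'.symm]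
  ext a b
  simp [Matrix.single_apply]
  split_ifs <;> first | linear_combination hs | linear_combination -hs | ring

/-- A monomial element. -/
def mono (π : Equiv.Perm (Fin n)) (d : Fin n → F)
    (hd : (Equiv.Perm.sign π : ℤ) * ∏ l, d l = 1) : Γ :=
  ⟨Matrix.of fun a b => if a = π b then d b else 0, by
    have hM : (Matrix.of fun a b => if a = π b then d b else 0) =
        (Matrix.diagonal d).submatrix π.symm id := by
      ext a b
      simp only [Matrix.of_apply, Matrix.submatrix_apply, id, Matrix.diagonal_apply, Equiv.symm_apply_eq]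
      split_ifs with hab
      · rw [hab, Equiv.symm_apply_apply]
      · rfl
    rw [hM, Matrix.det_permute, Matrix.det_diagonal, Equiv.Perm.sign_symm]
    exact_mod_cast hd⟩

theorem mono_mem {π : Equiv.Perm (Fin n)} {d : Fin n → F}
    {hd : (Equiv.Perm.sign π : ℤ) * ∏ l, d l = 1} (hrev : ∀ i, π i.rev = (π i).rev)
    (hu : ∀ i, σ (d i.rev) * d i = 1) : mono π d hd ∈ Ga n σ := by
  rw [mem_Ga]
  ext a b
  simp only [mono, st, Matrix.mul_apply, Matrix.of_apply]
  rw [Finset.sum_eq_single (π b) (fun l _ hl => by rw [if_neg hl, mul_zero]) (by simp), if_pos rfl]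
  by_cases hab : a = b
  · subst hab
    rw [if_pos (hrev a).symm, hu, Matrix.one_apply_eq]
  · rw [if_neg (fun e => hab (π.injective (Fin.rev_injective (by rw [e, hrev]))).symm), map_zero,
      zero_mul, Matrix.one_apply_ne hab]

theorem mono_x {π : Equiv.Perm (Fin n)} {d : Fin n → F}
    {hd : (Equiv.Perm.sign π : ℤ) * ∏ l, d l = 1} {i j a b : Fin n} (h : i ≠ j) (hab : a ≠ b)
    (ha : π i = a) (hb : π j = b) {c c' : F} (hc : d i * c = c' * d j) :
    mono π d hd * SLUpper.x h c * (mono π d hd)⁻¹ = (SLUpper.x hab c' : Γ) := by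
  subst ha hb
  rw [mul_inv_eq_iff_eq_mul]
  refine Subtype.ext ?_
  show (mono π d hd : M) * Matrix.transvection i j c =
    Matrix.transvection (π i) (π j) c' * (mono π d hd : M)
  simp only [Matrix.transvection, mul_add, add_mul, mul_one, one_mul, add_right_inj]
  ext x y
  by_cases hy : y = j
  · subst hy
    by_cases hx : x = π i
    · subst hx; simp [mono, hc]
    · simp [mono, hx]
  · by_cases hx : x = π i
    · subst hx; simp [mono, hy, π.injective.eq_iff, Ne.symm hy]
    · simp [mono, hx, hy]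

theorem mono_sh {π : Equiv.Perm (Fin n)} {d : Fin n → F}
    {hd : (Equiv.Perm.sign π : ℤ) * ∏ l, d l = 1} {i j a b : Fin n} (h : i ≠ j) (hab : a ≠ b)
    (hrev : ∀ i, π i.rev = (π i).rev)
    (ha : π i = a) (hb : π j = b) {c c' : F} (hc : d i * c = c' * d j)
    (hc2 : d j.rev * -σ c = -σ c' * d i.rev) :
    mono π d hd * sh σ h c * (mono π d hd)⁻¹ = sh σ hab c' := by
  rw [sh, sh, conj_mul.symm, mono_x h hab ha hb hc,
    mono_x (Fin.rev_injective.ne h.symm) (Fin.rev_injective.ne hab.symm) (by rw [hrev, hb])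
      (by rw [hrev, ha]) hc2]

theorem mono_md {π : Equiv.Perm (Fin n)} {d : Fin n → F}
    {hd : (Equiv.Perm.sign π : ℤ) * ∏ l, d l = 1} {i a k : Fin n} (hi : i ≠ i.rev) (hik : i ≠ k)
    (hk' : k ≠ i.rev) (hai : a ≠ a.rev) (hak : a ≠ k) (hak' : k ≠ a.rev)
    (hrev : ∀ i, π i.rev = (π i).rev) (ha : π i = a) (hk : π k = k) (h1 : d i = 1) (h2 : d k = 1)
    (h3 : d i.rev = 1) (t s : F) :
    mono π d hd * md σ hi hik hk' t s * (mono π d hd)⁻¹ = md σ hai hak hak' t s := by
  rw [md, md, conj_mul.symm, conj_mul.symm,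
    mono_x hi hai ha (by rw [hrev, ha]) (c' := s + t * σ t) (by rw [h1, h3]; ring),
    mono_x hik hak ha hk (c' := t) (by rw [h1, h2]; ring),
    mono_x hk' hak' hk (by rw [hrev, ha]) (c' := -σ t) (by rw [h2, h3]; ring)]


theorem lg_mem_U [Finite F] {i : Fin n} (h : i < i.rev) {c : F} (hc : σ c = -c) :
    lg h.ne c ∈ U n σ := (mem_U σ).2 ⟨lg_mem σ h.ne hc, SLUpper.x_mem h c⟩

theorem sh_mem_U [Finite F] (hσ : ∀ x : F, σ (σ x) = x) {i j : Fin n} (h : i < j) (hi : i ≠ i.rev)
    (hj : j ≠ j.rev) (t : F) : sh σ h.ne t ∈ U n σ :=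
  (mem_U σ).2 ⟨sh_mem σ hσ h.ne hi hj t,
    mul_mem (SLUpper.x_mem h t) (SLUpper.x_mem (Fin.rev_lt_rev.2 h) _)⟩

theorem lt_rev_of_lt_mid {i k : Fin n} (hk : k.rev = k) (h : i < k) : k < i.rev := by
  rw [← hk]; exact Fin.rev_lt_rev.2 h

theorem low_of_lt_mid {i k : Fin n} (hk : k.rev = k) (h : i < k) : i < i.rev :=
  h.trans (lt_rev_of_lt_mid hk h)

theorem md_mem_U [Finite F] (hσ : ∀ x : F, σ (σ x) = x) {i k : Fin n} (hk : k.rev = k) (h : i < k)
    {t s : F} (hs : s + σ s + t * σ t = 0) :
    md σ (low_of_lt_mid hk h).ne h.ne (lt_rev_of_lt_mid hk h).ne t s ∈ U n σ :=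
  (mem_U σ).2 ⟨md_mem σ hσ _ _ _ hk hs,
    mul_mem (SLUpper.x_mem (low_of_lt_mid hk h) _)
      (mul_mem (SLUpper.x_mem h t) (SLUpper.x_mem (lt_rev_of_lt_mid hk h) _))⟩

theorem row_id_col {g : Γ} (hg : g ∈ Ga n σ) {i : Fin n} (hi : ∀ y, (g : M) i y = (1 : M) i y) (x : Fin n) :
    (g : M) x i.rev = (1 : M) x i.rev := by
  have h := congrFun (congrFun (Ga_mul_st σ hg) x) i.rev
  rw [Matrix.mul_apply, Finset.sum_eq_single i.rev (fun l _ hl => ?_) (by simp)] at h
  · rw [← h]; simp [st, hi]
  · have : (i ≠ l.rev) := fun e => hl (by rw [e, Fin.rev_rev])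
    simp [st, hi, Matrix.one_apply_ne this]

/-- Generation of `U` by root elements. -/
theorem U_le [Finite F] (hσ : ∀ x : F, σ (σ x) = x) {H : Subgroup Γ} {τ : F} (hτ : τ + σ τ = 1)
    (hl : ∀ (i : Fin n) (h : i < i.rev) (c : F), σ c = -c → lg h.ne c ∈ H)
    (hs : ∀ (i j : Fin n) (h : i < j), i < i.rev → j < i.rev → j ≠ j.rev → ∀ t : F, sh σ h.ne t ∈ H)
    (hm : ∀ (i k : Fin n) (hk : k.rev = k) (h : i < k) (t s : F), s + σ s + t * σ t = 0 →
      md σ (low_of_lt_mid hk h).ne h.ne (lt_rev_of_lt_mid hk h).ne t s ∈ H) :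
    U n σ ≤ H := by
  suffices key : ∀ (d a : ℕ), n ≤ a + d → ∀ g : Γ, g ∈ U n σ →
      (∀ i : Fin n, i.1 < a → i < i.rev → ∀ y, (g : M) i y = (1 : M) i y) → g ∈ H from
    fun g hg => key n 0 (by omega) g hg (fun i hi => absurd hi (Nat.not_lt_zero _))
  intro d
  induction d with
  | zero =>
    intro a ha g hg hrow
    have hg1 : g = 1 := by
      refine Subtype.ext (Matrix.ext fun x y => ?_)
      rw [Matrix.SpecialLinearGroup.coe_one]
      rcases le_or_gt y x with h | h
      · exact hg.2 x y h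
      · by_cases hx : x < x.rev
        · exact hrow x (by omega) hx y
        · have hy : y.rev < y.rev.rev := by
            rw [Fin.rev_rev, Fin.lt_def, Fin.val_rev]
            rw [Fin.lt_def, Fin.val_rev] at hx
            rw [Fin.lt_def] at h
            omega
          have := row_id_col σ hg.1 (hrow y.rev (by omega) hy) x
          rwa [Fin.rev_rev] at this
    rw [hg1]; exact one_mem _
  | succ d ih =>
    intro a0 ha g hg hrow
    by_cases hlow : 2 * a0 + 1 < n
    swap
    · refine ih (a0 + 1) (by omega) g hg fun i hi hii => hrow i ?_ hii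
      rw [Fin.lt_def, Fin.val_rev] at hii
      omega
    set a : Fin n := ⟨a0, by omega⟩ with hadef
    have haa : a < a.rev := by rw [Fin.lt_def, Fin.val_rev]; simp only [a]; omega
    suffices inner : ∀ (e b : ℕ), a0 < b → n ≤ b + e → ∀ g : Γ, g ∈ U n σ →
        (∀ i : Fin n, i.1 < a0 → i < i.rev → ∀ y, (g : M) i y = (1 : M) i y) →
        (∀ l : Fin n, a0 < l.1 → l.1 < b → (g : M) a l = 0) → g ∈ H from
      inner n (a0 + 1) (by omega) (by omega) g hg hrow fun l h1 h2 => by omega
    intro e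
    induction e with
    | zero =>
      intro b _ hb g hg hrow hra
      refine ih (a0 + 1) (by omega) g hg fun i hi hii y => ?_
      rcases Nat.lt_succ_iff_lt_or_eq.1 hi with hi | hi
      · exact hrow i hi hii y
      · have hia : i = a := Fin.ext hi
        subst hia
        rcases le_or_gt y a with h | h
        · exact hg.2 a y h
        · rw [hra y (Fin.lt_def.1 h) (by omega), Matrix.one_apply_ne h.ne]
    | succ e ihe =>
      intro b0 hab hb g hg hrow hra
      by_cases hbn : b0 < n
      swap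
      · exact ihe (b0 + 1) (by omega) (by omega) g hg hrow fun l h1 h2 => hra l h1 (by omega)
      set b : Fin n := ⟨b0, hbn⟩ with hbdef
      have hab' : a < b := Fin.lt_def.2 hab
      rcases lt_trichotomy b a.rev with hba | hba | hba
      · -- clear the entry by a left multiplication
        obtain ⟨r, hrH, hrU, hother, hra'⟩ : ∃ r ∈ H, r ∈ U n σ ∧
            (∀ i : Fin n, i.1 < a0 → ∀ y, ((r * g : Γ) : M) i y = (g : M) i y) ∧
            (∀ l : Fin n, a0 < l.1 → l.1 < b0 + 1 → ((r * g : Γ) : M) a l = 0) := by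
          have hup : ∀ x y : Fin n, x < y → (g : M) y x = 0 := fun x y h => by
            rw [hg.2 y x h.le, Matrix.one_apply_ne h.ne']
          by_cases hbk : b = b.rev
          · obtain ⟨s, hs'⟩ : ∃ s : F, s + σ s + (-(g : M) a b) * σ (-(g : M) a b) = 0 :=
              ⟨-(((-(g : M) a b) * σ (-(g : M) a b)) * τ), by
                simp only [map_neg, map_mul, hσ]
                linear_combination (-((g : M) a b) * σ ((g : M) a b)) * hτ⟩
            refine ⟨_, hm a b hbk.symm hab' _ s hs', md_mem_U σ hσ hbk.symm hab' hs', fun i hi y => ?_,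
              fun l h1 h2 => ?_⟩
            · rw [Matrix.SpecialLinearGroup.coe_mul, md_val]
              have h3 : i ≠ a := Fin.ne_of_val_ne (by simp [a]; omega)
              have h4 : i ≠ b := Fin.ne_of_val_ne (by simp [b]; omega)
              simp [Matrix.add_mul, h3, h4]
            · rw [Matrix.SpecialLinearGroup.coe_mul, md_val]
              have h3 : l < a.rev := lt_of_le_of_lt (Fin.le_def.2 (show l.1 ≤ b.1 by simp [b]; omega)) hba
              simp only [Matrix.add_mul, Matrix.one_mul, Matrix.add_apply, Matrix.single_mul_apply_same,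
                Matrix.single_mul_apply_of_ne _ _ _ _ _ hab'.ne, hup l a.rev h3, mul_zero, add_zero]
              rcases lt_or_eq_of_le (Nat.lt_succ_iff.1 h2) with h5 | h5
              · rw [hra l h1 h5, hup l b (Fin.lt_def.2 h5)]; simp
              · have hlb : l = b := Fin.ext h5
                subst hlb
                rw [hg.2 b b le_rfl, Matrix.one_apply_eq]; ring
          · have hab'' : a < b.rev := by
              rw [← Fin.rev_rev a]; exact Fin.rev_lt_rev.2 hba
            refine ⟨_, hs a b hab' haa hba hbk (-(g : M) a b), sh_mem_U σ hσ hab' haa.ne hbk _,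
              fun i hi y => ?_, fun l h1 h2 => ?_⟩
            · rw [Matrix.SpecialLinearGroup.coe_mul, sh_val σ _ hbk]
              have h3 : i ≠ a := Fin.ne_of_val_ne (by simp [a]; omega)
              have h4 : i ≠ b.rev :=
                ne_of_lt (lt_trans (Fin.lt_def.2 (show i.1 < a.1 by simp [a]; omega)) hab'')
              simp [Matrix.add_mul, h3, h4]
            · rw [Matrix.SpecialLinearGroup.coe_mul, sh_val σ _ hbk]
              simp only [Matrix.add_mul, Matrix.one_mul, Matrix.add_apply, Matrix.single_mul_apply_same,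
                Matrix.single_mul_apply_of_ne _ _ _ _ _ hab''.ne, add_zero]
              rcases lt_or_eq_of_le (Nat.lt_succ_iff.1 h2) with h5 | h5
              · rw [hra l h1 h5, hup l b (Fin.lt_def.2 h5)]; simp
              · have hlb : l = b := Fin.ext h5
                subst hlb
                rw [hg.2 b b le_rfl, Matrix.one_apply_eq]; ring
        have := ihe (b0 + 1) (by omega) (by omega) (r * g) (mul_mem hrU hg)
          (fun i hi hii y => by rw [hother i hi, hrow i hi hii]) hra'
        exact (H.mul_mem_cancel_left hrH).1 this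
      · -- the long entry
        set c := (g : M) a b with hcdef
        have hskew : σ c = -c := by
          have h := congrFun (congrFun (Ga_mul_st σ hg.1) a) a.rev
          rw [Matrix.mul_apply, Finset.sum_eq_add a a.rev haa.ne (fun l _ hl => ?_) (by simp) (by simp),
            Matrix.one_apply_ne haa.ne] at h
          · simp only [st, Matrix.of_apply, Fin.rev_rev] at h
            rw [hg.2 a a le_rfl, Matrix.one_apply_eq, map_one, one_mul, mul_one] at h
            rw [hcdef, hba]
            linear_combination h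
          · rcases lt_trichotomy l a with h1 | h1 | h1
            · rw [hg.2 a l h1.le, Matrix.one_apply_ne h1.ne', zero_mul]
            · exact absurd h1 hl.1
            · rcases lt_trichotomy l a.rev with h2 | h2 | h2
              · rw [hra l (Fin.lt_def.1 h1) (by rw [show b0 = b.1 from rfl, hba]; exact h2), zero_mul]
              · exact absurd h2 hl.2
              · have h3 : l.rev < a := by rw [← Fin.rev_rev a]; exact Fin.rev_lt_rev.2 h2
                have h4 := row_id_col σ hg.1 (hrow l.rev h3 (by rw [Fin.rev_rev]; exact h3.trans (haa.trans h2))) a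
                rw [Fin.rev_rev] at h4
                rw [h4, Matrix.one_apply_ne h1.ne, zero_mul]
        have hr : lg haa.ne (-c) ∈ H := hl a haa _ (by rw [map_neg, hskew])
        have := ihe (b0 + 1) (by omega) (by omega) (lg haa.ne (-c) * g)
          (mul_mem (lg_mem_U σ haa (by rw [map_neg, hskew])) hg)
          (fun i hi hii y => by
            rw [SLUpper.x_mul_apply, if_neg (Fin.ne_of_val_ne (by simp [a]; omega)), hrow i hi hii])
          (fun l h1 h2 => by
            rw [SLUpper.x_mul_apply, if_pos rfl]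
            rcases lt_or_eq_of_le (Nat.lt_succ_iff.1 h2) with h5 | h5
            · rw [hra l h1 h5, hg.2 a.rev l (by rw [← hba]; exact (Fin.lt_def.2 h5 : l < b).le),
                Matrix.one_apply_ne (by rw [← hba]; exact (Fin.lt_def.2 h5 : l < b).ne')]
              simp
            · have hlb : l = b := Fin.ext h5
              subst hlb
              rw [hg.2 a.rev b hba.le, hba, Matrix.one_apply_eq, ← hba]; simp [c])
        exact (H.mul_mem_cancel_left hr).1 this
      · -- beyond the reversed index nothing is left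
        refine ihe (b0 + 1) (by omega) (by omega) g hg hrow fun l h1 h2 => ?_
        rcases lt_or_eq_of_le (Nat.lt_succ_iff.1 h2) with h5 | h5
        · exact hra l h1 h5
        · have hlb : l = b := Fin.ext h5
          subst hlb
          have h3 : b.rev < a := by rw [← Fin.rev_rev a]; exact Fin.rev_lt_rev.2 hba
          have h4 := row_id_col σ hg.1 (hrow b.rev h3 (by rw [Fin.rev_rev]; exact h3.trans (haa.trans hba))) a
          rw [Fin.rev_rev] at h4
          rw [h4, Matrix.one_apply_ne hab'.ne]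

theorem comm_sub_one {z r : Γ} (h : z * r = r * z) :
    (z : M) * ((r : M) - 1) = ((r : M) - 1) * (z : M) := by
  have h' := congrArg Subtype.val h
  simp only [Matrix.SpecialLinearGroup.coe_mul] at h'
  rw [mul_sub, sub_mul, mul_one, one_mul, h']

theorem lg_comm {z : Γ} {i : Fin n} (hi : i ≠ i.rev) {c : F} (hc : c ≠ 0)
    (h : z * lg hi c = lg hi c * z) :
    z i i = z i.rev i.rev ∧ (∀ x, x ≠ i → z x i = 0) ∧ ∀ y, y ≠ i.rev → z i.rev y = 0 := by
  have e := comm_sub_one h
  rw [lg, SLUpper.x, SpecialLinearGroup.transvection_coe, add_sub_cancel_left] at e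
  refine ⟨?_, fun x hx => ?_, fun y hy => ?_⟩
  · have := congrFun (congrFun e i) i.rev
    simpa [mul_comm c, hc] using this
  · have := congrFun (congrFun e x) i.rev
    simpa [hx, hc] using this
  · have := congrFun (congrFun e i) y
    simpa [hy, hc] using this.symm

theorem sh_comm {z : Γ} {i j : Fin n} (h : i ≠ j) (hj : j ≠ j.rev) {t : F}
    (hz : z * sh σ h t = sh σ h t * z) (x y : Fin n) :
    (if y = j then (z : M) x i * t else 0) + (if y = i.rev then (z : M) x j.rev * (-σ t) else 0) =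
      (if x = i then t * (z : M) j y else 0) + (if x = j.rev then -σ t * (z : M) i.rev y else 0) := by
  have e := congrFun (congrFun (comm_sub_one hz) x) y
  rw [sh_val σ h hj, add_sub_cancel_left, Matrix.mul_add, Matrix.add_mul, Matrix.add_apply,
    Matrix.add_apply] at e
  rw [show (if y = j then (z : M) x i * t else 0) = ((z : M) * single i j t) x y by
      by_cases hy : y = j <;> simp [hy],
    show (if y = i.rev then (z : M) x j.rev * (-σ t) else 0) =
      ((z : M) * single j.rev i.rev (-σ t)) x y by by_cases hy : y = i.rev <;> simp [hy],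
    show (if x = i then t * (z : M) j y else 0) = (single i j t * (z : M)) x y by
      by_cases hx : x = i <;> simp [hx],
    show (if x = j.rev then -σ t * (z : M) i.rev y else 0) =
      (single j.rev i.rev (-σ t) * (z : M)) x y by by_cases hx : x = j.rev <;> simp [hx]]
  exact e

theorem md_comm {z : Γ} {i k : Fin n} (hi : i ≠ i.rev) (hik : i ≠ k) (hk' : k ≠ i.rev) {t s : F}
    (hz : z * md σ hi hik hk' t s = md σ hi hik hk' t s * z) (x y : Fin n) :
    (if y = k then (z : M) x i * t else 0) + (if y = i.rev then (z : M) x k * (-σ t) else 0) +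
        (if y = i.rev then (z : M) x i * s else 0) =
      (if x = i then t * (z : M) k y else 0) + (if x = k then -σ t * (z : M) i.rev y else 0) +
        (if x = i then s * (z : M) i.rev y else 0) := by
  have e := congrFun (congrFun (comm_sub_one hz) x) y
  rw [md_val, add_sub_cancel_left, Matrix.mul_add, Matrix.mul_add, Matrix.add_mul, Matrix.add_mul,
    Matrix.add_apply, Matrix.add_apply, Matrix.add_apply, Matrix.add_apply] at e
  rw [show (if y = k then (z : M) x i * t else 0) = ((z : M) * single i k t) x y by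
      by_cases hy : y = k <;> simp [hy],
    show (if y = i.rev then (z : M) x k * (-σ t) else 0) =
      ((z : M) * single k i.rev (-σ t)) x y by by_cases hy : y = i.rev <;> simp [hy],
    show (if y = i.rev then (z : M) x i * s else 0) =
      ((z : M) * single i i.rev s) x y by by_cases hy : y = i.rev <;> simp [hy],
    show (if x = i then t * (z : M) k y else 0) = (single i k t * (z : M)) x y by
      by_cases hx : x = i <;> simp [hx],
    show (if x = k then -σ t * (z : M) i.rev y else 0) =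
      (single k i.rev (-σ t) * (z : M)) x y by by_cases hx : x = k <;> simp [hx],
    show (if x = i then s * (z : M) i.rev y else 0) = (single i i.rev s * (z : M)) x y by
      by_cases hx : x = i <;> simp [hx]]
  exact e

/-- The hypotheses on the field automorphism. -/
structure Good (κ τ θ : F) : Prop where
  inv : ∀ x : F, σ (σ x) = x
  skew : σ κ = -κ
  ne : κ ≠ 0
  tr : τ + σ τ = 1
  moved : σ θ ≠ θ
  norm : ∀ a : F, σ a = a → ∃ x : F, x * σ x = a

variable {σ} {κ τ θ : F} (hG : Good σ κ τ θ)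
include hG

theorem Good.cond (t : F) : (-(t * σ t * τ)) + σ (-(t * σ t * τ)) + t * σ t = 0 := by
  simp only [map_neg, map_mul, hG.inv]
  linear_combination (-(t * σ t)) * hG.tr

/-- The shape of the centre of `U`. -/
theorem center_form [Finite F] (hn : 4 ≤ n) {z : Γ} (hz : z ∈ U n σ)
    (hc : ∀ u ∈ U n σ, z * u = u * z) :
    ∃ (i0 : Fin n) (h : i0 < i0.rev) (c : F), i0.1 = 0 ∧ σ c = -c ∧ z = lg h.ne c := by
  set i0 : Fin n := ⟨0, by omega⟩ with hi0
  set i1 : Fin n := ⟨1, by omega⟩ with hi1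
  have h0 : i0 < i0.rev := by rw [Fin.lt_def, Fin.val_rev]; simp [i0]; omega
  have h1 : i1 < i1.rev := by rw [Fin.lt_def, Fin.val_rev]; simp [i1]; omega
  have hl : ∀ i : Fin n, i < i.rev →
      (∀ x, x ≠ i → z x i = 0) ∧ ∀ y, y ≠ i.rev → z i.rev y = 0 := fun i hi =>
    (lg_comm hi.ne hG.ne (hc _ (lg_mem_U σ hi hG.skew))).2
  have hmid : ∀ k : Fin n, k.rev = k → ∀ p : Fin n, p < p.rev →
      (z : M) p k = 0 ∧ (z : M) k p.rev = 0 := by
    intro k hk p hp
    obtain ⟨i, hip, hik⟩ : ∃ i : Fin n, i ≠ p ∧ i < k := by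
      have hk' : 1 < k.1 := by
        have := congrArg Fin.val hk
        rw [Fin.val_rev] at this
        omega
      by_cases hp0 : p = i0
      · exact ⟨i1, by rw [hp0]; simp [i0, i1, Fin.ext_iff], Fin.lt_def.2 (by simp [i1]; omega)⟩
      · exact ⟨i0, Ne.symm hp0, Fin.lt_def.2 (by simp [i0]; omega)⟩
    have hpk : p ≠ k := fun e => hp.ne (by rw [e, hk])
    have hii := low_of_lt_mid hk hik
    have h := md_comm σ hii.ne hik.ne (lt_rev_of_lt_mid hk hik).ne
      (hc _ (md_mem_U σ hG.inv hk hik (hG.cond 1)))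
    refine ⟨?_, ?_⟩
    · have e := h p i.rev
      simpa [(hl i hii).1 p hip.symm, hip.symm, hpk, (lt_rev_of_lt_mid hk hik).ne'] using e
    · have e := h i p.rev
      have e1 : p.rev ≠ k := fun e => hpk (by rw [← Fin.rev_rev p, e, hk])
      simpa [(hl i hii).2 p.rev (Fin.rev_injective.ne hip.symm), e1, hip.symm, hik.ne] using e.symm
  have hshort : ∀ p b : Fin n, p < p.rev → b < b.rev → ¬(p = i0 ∧ b = i0) → (z : M) p b.rev = 0 := by
    have hb0 : ∀ b : Fin n, b < b.rev → b ≠ i0 →
        (∀ p, p < p.rev → p ≠ i0 → (z : M) p b.rev = 0) ∧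
          (z : M) i0 b.rev = 0 ∧ (z : M) b i0.rev = 0 := by
      intro b hb hb0
      have hlt : i0 < b := Fin.lt_def.2 (Nat.pos_of_ne_zero fun e => hb0 (Fin.ext e))
      have h := fun t => sh_comm σ hlt.ne hb.ne (hc _ (sh_mem_U σ hG.inv hlt h0.ne hb.ne t))
      have hb' : i0.rev ≠ b := fun e => by
        have := congrArg Fin.val e
        rw [Fin.val_rev] at this
        rw [Fin.lt_def, Fin.val_rev] at hb
        simp [i0] at this
        omega
      have hi0b : i0 ≠ b.rev := fun e => hb' (by rw [e, Fin.rev_rev])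
      refine ⟨fun p hp hp0 => ?_, ?_⟩
      · have hpb : p ≠ b.rev := fun e => by
          subst e
          rw [Fin.rev_rev] at hp
          exact lt_asymm hp hb
        simpa [hb', hp0, hpb] using h 1 p i0.rev
      · have e1 : -(z : M) i0 b.rev = (z : M) b i0.rev := by
          simpa [hb', hi0b] using h 1 i0 i0.rev
        have e2 : -((z : M) i0 b.rev * σ θ) = θ * (z : M) b i0.rev := by
          simpa [hb', hi0b] using h θ i0 i0.rev
        have e3 : (z : M) i0 b.rev * (σ θ - θ) = 0 := by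
          rw [← e1] at e2; linear_combination -e2
        have e4 : (z : M) i0 b.rev = 0 :=
          (mul_eq_zero.1 e3).resolve_right (sub_ne_zero.2 hG.moved)
        exact ⟨e4, by rw [← e1, e4, neg_zero]⟩
    intro p b hp hb hne
    by_cases hb' : b = i0
    · subst hb'
      exact (hb0 p hp (fun e => hne ⟨e, rfl⟩)).2.2
    · by_cases hp0 : p = i0
      · subst hp0; exact (hb0 b hb hb').2.1
      · exact (hb0 b hb hb').1 p hp hp0
  have hzf : ∀ x y, ¬(x = i0 ∧ y = i0.rev) → (z : M) x y = (1 : M) x y := by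
    intro x y hxy
    rcases le_or_gt y x with h | h
    · exact hz.2 x y h
    rw [Matrix.one_apply_ne h.ne]
    rcases lt_trichotomy y y.rev with hy | hy | hy
    · exact (hl y hy).1 x h.ne
    · rcases lt_trichotomy x x.rev with hx | hx | hx
      · exact (hmid y hy.symm x hx).1
      · exfalso
        have e1 := congrArg Fin.val hx
        have e2 := congrArg Fin.val hy
        rw [Fin.val_rev] at e1 e2
        rw [Fin.lt_def] at h; omega
      · exfalso
        have e2 := congrArg Fin.val hy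
        rw [Fin.lt_def, Fin.val_rev] at hx
        rw [Fin.val_rev] at e2
        rw [Fin.lt_def] at h; omega
    · rcases lt_trichotomy x x.rev with hx | hx | hx
      · have := hshort x y.rev hx (by rw [Fin.rev_rev]; exact hy)
          (fun e => hxy ⟨e.1, by rw [← e.2, Fin.rev_rev]⟩)
        rwa [Fin.rev_rev] at this
      · have := (hmid x hx.symm y.rev (by rw [Fin.rev_rev]; exact hy)).2
        rwa [Fin.rev_rev] at this
      · have := (hl x.rev (by rw [Fin.rev_rev]; exact hx)).2 y (by rw [Fin.rev_rev]; exact h.ne')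
        rwa [Fin.rev_rev] at this
  set c := (z : M) i0 i0.rev
  have hz' : z = lg h0.ne c := by
    refine Subtype.ext (Matrix.ext fun x y => ?_)
    rw [lg, SLUpper.x, SpecialLinearGroup.transvection_coe, Matrix.add_apply, Matrix.single_apply]
    by_cases h : x = i0 ∧ y = i0.rev
    · obtain ⟨rfl, rfl⟩ := h
      simp [c, h0.ne]
    · rw [hzf x y h, if_neg (fun e => h ⟨e.1.symm, e.2.symm⟩), add_zero]
  refine ⟨i0, h0, c, rfl, ?_, hz'⟩
  have h := congrFun (congrFun (Ga_mul_st σ hz.1) i0) i0.rev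
  rw [hz', lg, SLUpper.x, SpecialLinearGroup.transvection_coe, st_add, st_one, st_single,
    Fin.rev_rev] at h
  simp [Matrix.add_mul, Matrix.mul_add, h0.ne, h0.ne'] at h
  linear_combination h

omit hG

/-- `T` is closed in `U` under conjugation. -/
def Closed [Finite F] (σ : F →+* F) (T : Subgroup Γ) : Prop :=
  T ≤ U n σ ∧ ∀ u ∈ T, ∀ g ∈ Ga n σ, g * u * g⁻¹ ∈ U n σ → g * u * g⁻¹ ∈ T

theorem Closed.conj [Finite F] {T : Subgroup Γ} (hT : Closed σ T) {u g v : Γ} (hu : u ∈ T)
    (hg : g ∈ Ga n σ) (e : g * u * g⁻¹ = v) (hv : v ∈ U n σ) : v ∈ T :=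
  e ▸ hT.2 u hu g hg (e.symm ▸ hv)

theorem exists_swap {i j : Fin n} (hij : i ≠ j) (hi : i < i.rev) (hj : j < j.rev) :
    ∃ π : Equiv.Perm (Fin n), (∀ x, π x.rev = (π x).rev) ∧ π i = j ∧ π j = i ∧
      (∀ x, x.rev = x → π x = x) ∧ (Equiv.Perm.sign π : ℤ) = 1 := by
  have h1 : i ≠ j.rev := fun e => by
    subst e; rw [Fin.rev_rev] at hi; exact lt_asymm hi hj
  have h2 : i.rev ≠ j := fun e => h1 (by rw [← e, Fin.rev_rev])
  refine ⟨Equiv.swap i j * Equiv.swap i.rev j.rev, fun x => ?_, ?_, ?_, fun x hx => ?_, ?_⟩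
  · simp only [Equiv.Perm.mul_apply]
    by_cases e1 : x = i
    · subst e1
      simp [Equiv.swap_apply_of_ne_of_ne, hi.ne, hj.ne', h1, h1.symm, h2, h2.symm, hij, hij.symm]
    by_cases e2 : x = j
    · subst e2
      simp [Equiv.swap_apply_of_ne_of_ne, hi.ne', hj.ne, h1, h1.symm, h2, h2.symm, hij, hij.symm]
    by_cases e3 : x = i.rev
    · subst e3
      simp [Equiv.swap_apply_of_ne_of_ne, hi.ne, hi.ne', hj.ne, hj.ne', h1, h1.symm, h2, h2.symm, hij, hij.symm]
    by_cases e4 : x = j.rev
    · subst e4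
      simp [Equiv.swap_apply_of_ne_of_ne, hi.ne, hi.ne', hj.ne, hj.ne', h1, h1.symm, h2, h2.symm, hij, hij.symm]
    have f1 : x.rev ≠ i.rev := Fin.rev_injective.ne e1
    have f2 : x.rev ≠ j.rev := Fin.rev_injective.ne e2
    have f3 : x.rev ≠ i := fun e => e3 (by rw [← e, Fin.rev_rev])
    have f4 : x.rev ≠ j := fun e => e4 (by rw [← e, Fin.rev_rev])
    simp [Equiv.swap_apply_of_ne_of_ne, e1, e2, e3, e4, f1, f2, f3, f4]
  · simp [Equiv.swap_apply_of_ne_of_ne, hi.ne, h1]
  · simp [Equiv.swap_apply_of_ne_of_ne, h2.symm, hj.ne]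
  · have e1 : x ≠ i := fun e => hi.ne (by rw [← e, hx])
    have e2 : x ≠ j := fun e => hj.ne (by rw [← e, hx])
    have e3 : x ≠ i.rev := fun e => e1 (by rw [← hx, e, Fin.rev_rev])
    have e4 : x ≠ j.rev := fun e => e2 (by rw [← hx, e, Fin.rev_rev])
    simp [Equiv.swap_apply_of_ne_of_ne, e1, e2, e3, e4]
  · rw [map_mul, Equiv.Perm.sign_swap hij, Equiv.Perm.sign_swap (Fin.rev_injective.ne hij)]
    norm_num

theorem lg_spread {i j : Fin n} (hij : i ≠ j) (hi : i < i.rev) (hj : j < j.rev) {c t : F}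
    (hσ : ∀ x : F, σ (σ x) = x) (hc : σ c = -c) :
    sh σ hij.symm t * lg hi.ne c * (sh σ hij.symm t)⁻¹ =
      lg hi.ne c * lg hj.ne (t * σ t * c) *
        sh σ (i := i) (j := j.rev) (by intro e; subst e; rw [Fin.rev_rev] at hi; exact lt_asymm hi hj)
          (c * σ t) := by
  have h1 : i ≠ j.rev := fun e => by
    subst e; rw [Fin.rev_rev] at hi; exact lt_asymm hi hj
  have h2 : i.rev ≠ j := fun e => h1 (by rw [← e, Fin.rev_rev])
  rw [mul_inv_eq_iff_eq_mul]
  refine Subtype.ext ?_
  simp only [Matrix.SpecialLinearGroup.coe_mul]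
  rw [sh_val σ _ hi.ne, sh_val σ _ (by rw [Fin.rev_rev]; exact hj.ne'), lg, lg, SLUpper.x, SLUpper.x,
    SpecialLinearGroup.transvection_coe, SpecialLinearGroup.transvection_coe, Fin.rev_rev, map_mul, hc, hσ]
  simp [Matrix.add_mul, Matrix.mul_add, hi.ne, hi.ne', hj.ne, hj.ne', h1, h1.symm, h2, h2.symm, hij, hij.symm]
  ext a b
  simp [Matrix.single_apply]
  split_ifs <;> ring

theorem md_spread {i j k : Fin n} (hk : k.rev = k) (hij : i ≠ j) (hi : i < k) (hj : j < k) {t s : F}
    (hσ : ∀ x : F, σ (σ x) = x) (hs : s + σ s + t * σ t = 0) :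
    sh σ hij 1 * md σ (low_of_lt_mid hk hj).ne hj.ne (lt_rev_of_lt_mid hk hj).ne t s * (sh σ hij 1)⁻¹ =
      md σ (low_of_lt_mid hk hi).ne hi.ne (lt_rev_of_lt_mid hk hi).ne t s *
        md σ (low_of_lt_mid hk hj).ne hj.ne (lt_rev_of_lt_mid hk hj).ne t s *
        sh σ (i := i) (j := j.rev)
          (by intro e; subst e; exact lt_asymm hi (lt_rev_of_lt_mid hk hj)) (-σ s) := by
  have hii := low_of_lt_mid hk hi
  have hjj := low_of_lt_mid hk hj
  have hik' := lt_rev_of_lt_mid hk hi
  have hjk' := lt_rev_of_lt_mid hk hj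
  have h1 : i ≠ j.rev := fun e => by
    subst e; exact lt_asymm hi (lt_rev_of_lt_mid hk hj)
  have h2 : i.rev ≠ j := fun e => h1 (by rw [← e, Fin.rev_rev])
  rw [mul_inv_eq_iff_eq_mul]
  refine Subtype.ext ?_
  simp only [Matrix.SpecialLinearGroup.coe_mul]
  rw [sh_val σ hij hjj.ne, sh_val σ _ (by rw [Fin.rev_rev]; exact hjj.ne'), md_val, md_val, Fin.rev_rev,
    map_one, map_neg, hσ, neg_neg]
  simp [Matrix.add_mul, Matrix.mul_add, hii.ne, hii.ne', hjj.ne, hjj.ne', h1, h1.symm, h2, h2.symm, hij,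
    hij.symm, hi.ne, hi.ne', hj.ne, hj.ne', hik'.ne, hik'.ne', hjk'.ne, hjk'.ne']
  ext a b
  simp [Matrix.single_apply]
  split_ifs <;> first | ring1 | linear_combination hs | linear_combination -hs

include hG

/-- A nontrivial closed subgroup is all of `U`. -/
theorem closed_eq [Finite F] (hn : 4 ≤ n) {T : Subgroup Γ} (hT : Closed σ T) {z : Γ} (hz : z ∈ T)
    (hz1 : z ≠ 1) (hc : ∀ u ∈ U n σ, z * u = u * z) : T = U n σ := by
  obtain ⟨i0, h0, c, hi0, hcs, rfl⟩ := center_form hG hn (hT.1 hz) hc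
  have hc0 : c ≠ 0 := fun e => hz1 (by
    subst e
    exact SpecialLinearGroup.transvection_coeff_zero _)
  set i1 : Fin n := ⟨1, by omega⟩ with hi1
  have h1 : i1 < i1.rev := by rw [Fin.lt_def, Fin.val_rev]; simp [i1]; omega
  have h01 : i0 ≠ i1 := Fin.ne_of_val_ne (by simp [i1, hi0])
  have h01' : i0 ≠ i1.rev := Fin.ne_of_val_ne (by rw [Fin.val_rev]; simp [i1, hi0]; omega)
  have h01'' : i0.rev ≠ i1 := fun e => h01' (by rw [← e, Fin.rev_rev])
  have hone : ∀ x : Fin n, σ ((1 : Fin n → F) x.rev) * (1 : Fin n → F) x = 1 := by simp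
  -- scaling
  have hscale : ∀ t : F, t ≠ 0 → lg h0.ne (c * (t * σ t)) ∈ T := by
    intro t ht
    have hst : σ t ≠ 0 := (map_ne_zero σ).2 ht
    set d : Fin n → F := fun x =>
      if x = i0 then t else if x = i0.rev then (σ t)⁻¹ else if x = i1 then t⁻¹ else
        if x = i1.rev then σ t else 1 with hd
    have hprod : ((Equiv.Perm.sign (1 : Equiv.Perm (Fin n)) : ℤ) : F) * ∏ l, d l = 1 := by
      rw [map_one]
      have : ∏ l, d l = ∏ l ∈ ({i0, i0.rev, i1, i1.rev} : Finset (Fin n)), d l :=
        (Finset.prod_subset (Finset.subset_univ _) fun x _ hx => by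
          simp only [Finset.mem_insert, Finset.mem_singleton, not_or] at hx
          simp [d, hx.1, hx.2.1, hx.2.2.1, hx.2.2.2]).symm
      rw [this, Finset.prod_insert (by simp [h0.ne, h01, h01']),
        Finset.prod_insert (by simp [h01'', Fin.rev_injective.ne h01]),
        Finset.prod_insert (by simp [h1.ne]), Finset.prod_singleton]
      simp [d, h0.ne', h01.symm, h01'.symm, h01''.symm, h1.ne',
        (Fin.rev_injective.ne h01).symm, (Fin.rev_injective.ne h01)]
      field_simp
    refine hT.conj hz (mono_mem σ (π := 1) (hd := hprod) (fun x => rfl) fun x => ?_)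
      (mono_x h0.ne h0.ne rfl rfl ?_) (lg_mem_U σ h0 (by rw [map_mul, map_mul, hG.inv, hcs]; ring))
    · by_cases e1 : x = i0
      · subst e1; simp [d, h0.ne']; rw [hG.inv, inv_mul_cancel₀ ht]
      by_cases e2 : x = i0.rev
      · subst e2; simp [d, h0.ne', hst]
      by_cases e3 : x = i1
      · subst e3
        simp [d, h1.ne', h01.symm, h01'.symm, h01''.symm, (Fin.rev_injective.ne h01).symm, hG.inv, ht]
      by_cases e4 : x = i1.rev
      · subst e4
        simp [d, h1.ne', h01.symm, h01'.symm, h01''.symm, (Fin.rev_injective.ne h01).symm, hst]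
      have f1 : x.rev ≠ i0.rev := Fin.rev_injective.ne e1
      have f3 : x.rev ≠ i1.rev := Fin.rev_injective.ne e3
      have f2 : x.rev ≠ i0 := fun e => e2 (by rw [← e, Fin.rev_rev])
      have f4 : x.rev ≠ i1 := fun e => e4 (by rw [← e, Fin.rev_rev])
      simp [d, e1, e2, e3, e4, f1, f2, f3, f4]
    · simp [d, h0.ne']; field_simp
  have hL0 : ∀ e : F, σ e = -e → lg h0.ne e ∈ T := by
    intro e he
    by_cases he0 : e = 0
    · subst he0
      rw [show lg h0.ne (0 : F) = 1 from SpecialLinearGroup.transvection_coeff_zero _]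
      exact one_mem _
    obtain ⟨t, ht⟩ := hG.norm (e / c) (by rw [map_div₀, he, hcs, neg_div_neg_eq])
    have ht0 : t ≠ 0 := fun h => by
      rw [h, zero_mul] at ht; exact (div_ne_zero he0 hc0) ht.symm
    have := hscale t ht0
    rwa [ht, mul_div_cancel₀ e hc0] at this
  have hL : ∀ (i : Fin n) (h : i < i.rev) (e : F), σ e = -e → lg h.ne e ∈ T := by
    intro i h e he
    by_cases hi : i = i0
    · subst hi; exact hL0 e he
    obtain ⟨π, hrev, hπ, -, -, hsgn⟩ := exists_swap (Ne.symm hi) h0 h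
    exact hT.conj (hL0 e he) (mono_mem σ (π := π) (d := 1) (hd := by simp [hsgn]) hrev hone)
      (mono_x h0.ne h.ne hπ (by rw [hrev, hπ]) (by simp)) (lg_mem_U σ h he)
  have hS' : ∀ (i j : Fin n) (hi : i < i.rev) (hj : j < j.rev) (_hij : i ≠ j) (h : i < j.rev) (t : F),
      sh σ h.ne t ∈ T := by
    intro i j hi hj hij h t
    have hc0' := hL i hi c hcs
    set t' := σ (t / c)
    have hsk : σ (t' * σ t' * c) = -(t' * σ t' * c) := by rw [map_mul, map_mul, hG.inv, hcs]; ring
    have heq := lg_spread (σ := σ) (t := t') hij hi hj hG.inv hcs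
    have ht : c * σ t' = t := by simp only [t', hG.inv]; rw [mul_div_cancel₀ t hc0]
    have hshU := sh_mem_U σ hG.inv h hi.ne (by rw [Fin.rev_rev]; exact hj.ne') (c * σ t')
    have := hT.conj hc0' (sh_mem σ hG.inv hij.symm hj.ne hi.ne t') heq
      (mul_mem (mul_mem (lg_mem_U σ hi hcs) (lg_mem_U σ hj hsk)) hshU)
    rw [(mul_mem_cancel_left (mul_mem hc0' (hL j hj _ hsk)))] at this
    simpa only [ht] using this
  have hlowlt : ∀ i j : Fin n, i < i.rev → j < j.rev → i < j.rev := fun i j hi hj => by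
    rw [Fin.lt_def, Fin.val_rev] at hi hj ⊢; omega
  have hS : ∀ (i j : Fin n) (h : i < j), i < i.rev → j < j.rev → ∀ t : F, sh σ h.ne t ∈ T := by
    intro i j h hi hj t
    set d : Fin n → F := fun x => if x = j then κ else if x = j.rev then -κ⁻¹ else 1 with hd
    have hprod : ((Equiv.Perm.sign (Equiv.swap j j.rev) : ℤ) : F) * ∏ l, d l = 1 := by
      rw [Equiv.Perm.sign_swap hj.ne, Finset.prod_eq_mul j j.rev hj.ne
        (fun x _ hx => by simp [d, hx.1, hx.2]) (by simp) (by simp)]
      simp [d, hj.ne', hG.ne]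
    have hij' : i ≠ j.rev := (hlowlt i j hi hj).ne
    have hrev : ∀ x : Fin n, Equiv.swap j j.rev x.rev = (Equiv.swap j j.rev x).rev := by
      intro x
      by_cases e1 : x = j
      · subst e1; simp
      by_cases e2 : x = j.rev
      · subst e2; simp
      have f1 : x.rev ≠ j.rev := Fin.rev_injective.ne e1
      have f2 : x.rev ≠ j := fun e => e2 (by rw [← e, Fin.rev_rev])
      simp [Equiv.swap_apply_of_ne_of_ne, e1, e2, f1, f2]
    have hi'j : i.rev ≠ j := fun e => hij' (by rw [← e, Fin.rev_rev])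
    refine hT.conj (hS' i j hi hj h.ne (hlowlt i j hi hj) (t * -κ⁻¹))
      (mono_mem σ (π := Equiv.swap j j.rev) (hd := hprod) hrev fun x => ?_)
      (mono_sh σ _ h.ne hrev (Equiv.swap_apply_of_ne_of_ne h.ne hij') (Equiv.swap_apply_right _ _) ?_ ?_)
      (sh_mem_U σ hG.inv h hi.ne hj.ne t)
    · by_cases e1 : x = j
      · subst e1; simp [d, hj.ne', hG.skew, hG.ne]
      by_cases e2 : x = j.rev
      · subst e2; simp [d, hj.ne', hG.skew, hG.ne]
      have f1 : x.rev ≠ j.rev := Fin.rev_injective.ne e1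
      have f2 : x.rev ≠ j := fun e => e2 (by rw [← e, Fin.rev_rev])
      simp [d, e1, e2, f1, f2]
    · simp [d, h.ne, hij', hj.ne']
    · have f : i.rev ≠ j.rev := Fin.rev_injective.ne h.ne
      simp [d, hi'j, f, hG.skew, hG.ne]
      field_simp [hG.ne]
      try rw [mul_div_cancel_left₀ _ hG.ne]
  have hS2 : ∀ (i j : Fin n) (h : i < j), i < i.rev → j < i.rev → j ≠ j.rev → ∀ t : F,
      sh σ h.ne t ∈ T := by
    intro i j h hi hji hj t
    rcases lt_or_gt_of_ne hj with hj' | hj'
    · exact hS i j h hi hj' t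
    · have h' : i < j.rev.rev := by rw [Fin.rev_rev]; exact h
      have hne : i ≠ j.rev := fun e => hji.ne (by rw [e, Fin.rev_rev])
      have := hS' i j.rev hi (by rw [Fin.rev_rev]; exact hj') hne h' t
      simpa only [Fin.rev_rev] using this
  refine le_antisymm hT.1 (U_le σ hG.inv hG.tr hL hS2 ?_)
  intro i k hk hik t s hs
  -- first for an index below another low index
  have hlow : ∀ (i j : Fin n) (hi : i < k) (hj : j < k), i < j → ∀ t s : F, s + σ s + t * σ t = 0 →
      md σ (low_of_lt_mid hk hi).ne hi.ne (lt_rev_of_lt_mid hk hi).ne t s ∈ T := by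
    intro i j hi hj hij t s hs
    have hii := low_of_lt_mid hk hi
    have hjj := low_of_lt_mid hk hj
    set a := sh σ hij.ne (1 : F)
    set mj := md σ hjj.ne hj.ne (lt_rev_of_lt_mid hk hj).ne t s
    set mi := md σ hii.ne hi.ne (lt_rev_of_lt_mid hk hi).ne t s
    set w := sh σ (hlowlt i j hii hjj).ne (-σ s)
    have heq : a * mj * a⁻¹ = mi * mj * w := md_spread hk hij.ne hi hj hG.inv hs
    have haT : a ∈ T := hS i j hij hii hjj 1
    have hw : w ∈ T := hS' i j hii hjj hij.ne (hlowlt i j hii hjj) _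
    have hmjU : mj ∈ U n σ := md_mem_U σ hG.inv hk hj hs
    have hnorm : ∀ v ∈ T, mj * v * mj⁻¹ ∈ T := fun v hv =>
      hT.2 v hv mj hmjU.1 (mul_mem (mul_mem hmjU (hT.1 hv)) (inv_mem hmjU))
    have : mi = a * (mj * a⁻¹ * mj⁻¹) * (mj * w⁻¹ * mj⁻¹) := by
      calc mi = (mi * mj * w) * w⁻¹ * mj⁻¹ := by group
        _ = (a * mj * a⁻¹) * w⁻¹ * mj⁻¹ := by rw [heq]
        _ = _ := by group
    rw [this]
    exact mul_mem (mul_mem haT (hnorm _ (inv_mem haT))) (hnorm _ (inv_mem hw))
  by_cases hi0' : i = i0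
  · have hk1 : i1 < k := by
      have := congrArg Fin.val hk
      rw [Fin.val_rev] at this
      rw [Fin.lt_def]; simp [i1]; omega
    exact hlow i i1 hik hk1 (by rw [hi0', Fin.lt_def]; simp [i1, hi0]) t s hs
  · have hk0 : i0 < k := lt_of_le_of_lt (Fin.le_def.2 (by omega)) hik
    have hbase := hlow i0 i hk0 hik (Fin.lt_def.2 (by
      rw [hi0]; exact Nat.pos_of_ne_zero fun e => hi0' (Fin.ext (e.trans hi0.symm)))) t s hs
    obtain ⟨π, hrev, hπ, -, hπk, hsgn⟩ := exists_swap (Ne.symm hi0') h0 (low_of_lt_mid hk hik)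
    exact hT.conj hbase (mono_mem σ (π := π) (d := 1) (hd := by simp [hsgn]) hrev hone)
      (mono_md σ _ _ _ _ _ _ hrev hπ (hπk k hk) rfl rfl rfl t s) (md_mem_U σ hG.inv hk hik hs)

end Cfsg.Agent.Lib.GS.SuBorel
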