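import Cfsg.Agent.Lib.GS.SuBorel

/-!
The antidiagonal special unitary group: normalizer of U, torus, self-centralizing radicals.
-/

set_option autoImplicit false

namespace Cfsg.Agent.Lib.GS.SuBorel

open Matrix
open Cfsg.Agent.Lib.Fusion

variable {n : ℕ} {F : Type*} [Field F] {σ : F →+* F} {κ τ θ : F}

local notation "Γ" => Matrix.SpecialLinearGroup (Fin n) F
local notation "M" => Matrix (Fin n) (Fin n) F

theorem triangular_of_conj [Finite F] (hG : Good σ κ τ θ) {g : Γ}
    (hg : ∀ u ∈ U n σ, g * u * g⁻¹ ∈ U n σ) : (g : M).BlockTriangular id := by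
  suffices key : ∀ (d : ℕ) (i a : Fin n), n ≤ i.1 + d → a < i → (g : M) i a = 0 from
    fun i a h => key n i a (by omega) h
  intro d
  induction d with
  | zero => intro i a h _; omega
  | succ d ih =>
    intro i a hi hai
    have heq : ∀ u ∈ U n σ, ∀ y : Fin n, y ≤ i → ((g : M) * ((u : M) - 1)) i y = 0 := by
      intro u hu y hy
      have hv := hg u hu
      set v := g * u * g⁻¹
      have e : (g : M) * (u : M) = (v : M) * (g : M) := by
        rw [← Matrix.SpecialLinearGroup.coe_mul, ← Matrix.SpecialLinearGroup.coe_mul, inv_mul_cancel_right]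
      rw [Matrix.mul_sub, Matrix.mul_one, Matrix.sub_apply, e, Matrix.mul_apply,
        Finset.sum_eq_single i (fun l _ hl => ?_) (by simp), hv.2 i i le_rfl, Matrix.one_apply_eq, one_mul,
        sub_self]
      rcases lt_or_gt_of_ne hl with h | h
      · rw [hv.2 i l h.le, Matrix.one_apply_ne hl.symm, zero_mul]
      · rw [ih l y (by have := Fin.lt_def.1 h; omega) (lt_of_le_of_lt hy h), mul_zero]
    have hlong : ∀ b : Fin n, b < b.rev → b.rev = i → (g : M) i b = 0 := by
      intro b hb hbi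
      have h := heq _ (lg_mem_U σ hb hG.skew) b.rev hbi.le
      rw [lg, SLUpper.x, SpecialLinearGroup.transvection_coe, add_sub_cancel_left,
        Matrix.mul_single_apply_same] at h
      exact (mul_eq_zero.1 h).resolve_right hG.ne
    by_cases hai' : a.rev = i
    · exact hlong a (hai'.symm ▸ hai) hai'
    by_cases ha : a = a.rev
    · -- through the middle index
      have hib : i.rev < a := by rw [ha]; exact Fin.rev_lt_rev.2 hai
      have hr : i.rev < i.rev.rev := by rw [Fin.rev_rev]; exact hib.trans hai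
      have h := heq _ (md_mem_U σ hG.inv ha.symm hib (hG.cond 1)) i le_rfl
      rw [md_val, add_sub_cancel_left, Matrix.mul_add, Matrix.mul_add, Matrix.add_apply,
        Matrix.add_apply, Matrix.mul_single_apply_of_ne _ _ _ _ _ hai.ne', Fin.rev_rev,
        Matrix.mul_single_apply_same, Matrix.mul_single_apply_same,
        hlong i.rev hr (Fin.rev_rev i), map_one] at h
      simpa using h
    by_cases hi' : i = i.rev
    · have h := heq _ (md_mem_U σ hG.inv hi'.symm hai (hG.cond 1)) i le_rfl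
      rw [md_val, add_sub_cancel_left, Matrix.mul_add, Matrix.mul_add, Matrix.add_apply,
        Matrix.add_apply, Matrix.mul_single_apply_same,
        Matrix.mul_single_apply_of_ne _ _ _ _ _ (Ne.symm hai'),
        Matrix.mul_single_apply_of_ne _ _ _ _ _ (Ne.symm hai')] at h
      simpa using h
    have h := heq _ (sh_mem_U σ hG.inv hai ha hi' 1) i le_rfl
    rw [sh_val σ _ hi', add_sub_cancel_left, Matrix.mul_add, Matrix.add_apply,
      Matrix.mul_single_apply_same, Matrix.mul_single_apply_of_ne _ _ _ _ _ (Ne.symm hai')] at h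
    simpa using h

/-- The Levi radical decomposition. -/
def f1 (x : Fin n) : ℕ := if x < x.rev then 0 else if x = x.rev then 1 else 2

/-- The block decomposition at the last low index. -/
def f2 (l x : Fin n) : ℕ := if x < l then x.1 else if x ≤ l.rev then l.1 else x.1

theorem f1_mono : Monotone (f1 (n := n)) := by
  intro x y h
  simp only [f1, Fin.lt_def, Fin.ext_iff, Fin.val_rev]
  rw [Fin.le_def] at h
  split_ifs <;> omega

theorem f2_mono (l : Fin n) : Monotone (f2 l) := by
  intro x y h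
  simp only [f2, Fin.lt_def, Fin.le_def, Fin.val_rev]
  rw [Fin.le_def] at h
  split_ifs <;> omega

theorem tri_of_scalar {α : Type*} [LinearOrder α] {f : Fin n → α} (hf : Monotone f) {g : Γ} {a : F}
    (h : ∀ x y, f y ≤ f x → (g : M) x y = a * (1 : M) x y) :
    (g : M).BlockTriangular id ∧ ∀ i, (g : M) i i = a :=
  ⟨fun x y hxy => by rw [h x y (hf (le_of_lt hxy)), Matrix.one_apply_ne (ne_of_gt (show y < x from hxy)),
    mul_zero], fun i => by rw [h i i le_rfl, Matrix.one_apply_eq, mul_one]⟩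

/-- A scalar in the group. -/
theorem exists_scalar {α : Type*} [LinearOrder α] [Finite F] {f : Fin n → α} (hf : Monotone f) (hn : 1 ≤ n)
    {g : Γ} (hgG : g ∈ Ga n σ) {a : F} (h : ∀ x y, f y ≤ f x → (g : M) x y = a * (1 : M) x y) :
    ∃ z : Γ, (z : M) = a⁻¹ • (1 : M) ∧ z ∈ Ga n σ ∧ z * g ∈ Rad σ f := by
  obtain ⟨htri, hdiag⟩ := tri_of_scalar hf h
  have hdet : a ^ n = 1 := by
    have := g.2
    rw [Matrix.det_of_upperTriangular htri, Finset.prod_congr rfl fun i _ => hdiag i] at this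
    simpa using this
  have ha : a ≠ 0 := fun h0 => by simp [h0, zero_pow (show n ≠ 0 by omega)] at hdet
  have hu : σ a * a = 1 := by
    set i0 : Fin n := ⟨0, hn⟩
    have e := congrFun (congrFun (hgG : st σ (g : M) * (g : M) = 1) i0) i0
    rw [Matrix.mul_apply, Finset.sum_eq_single i0 (fun l _ hl => ?_) (by simp)] at e
    · simpa [st, hdiag] using e
    · rw [show (g : M) l i0 = 0 from htri (lt_of_le_of_ne (Fin.le_def.2 (Nat.zero_le _)) (Ne.symm hl)),
        mul_zero]
  let z : Γ := ⟨a⁻¹ • (1 : M), by rw [Matrix.det_smul, Matrix.det_one, mul_one, Fintype.card_fin,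
    inv_pow, hdet, inv_one]⟩
  have hz : z ∈ Ga n σ := by
    rw [mem_Ga]
    show st σ (a⁻¹ • (1 : M)) * (a⁻¹ • (1 : M)) = 1
    have : st σ (a⁻¹ • (1 : M)) = σ a⁻¹ • (1 : M) := by
      ext x y; simp [st, Matrix.one_apply, apply_ite σ, eq_comm]
    rw [this, smul_mul_smul_comm, one_mul, map_inv₀, ← mul_inv, hu, inv_one, one_smul]
  refine ⟨z, rfl, hz, mul_mem hz hgG, fun x y hxy => ?_⟩
  rw [Matrix.SpecialLinearGroup.coe_mul]
  show ((a⁻¹ • (1 : M)) * (g : M)) x y = _
  rw [Matrix.smul_mul, Matrix.one_mul, Matrix.smul_apply, h x y hxy, smul_eq_mul, ← mul_assoc,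
    inv_mul_cancel₀ ha, one_mul]

theorem single_off {α : Type*} [LinearOrder α] {f : Fin n → α} {i j : Fin n} (hf : f i < f j) (c : F)
    {x y : Fin n} (hxy : f y ≤ f x) : Matrix.single i j c x y = 0 := by
  rw [Matrix.single_apply, if_neg]
  rintro ⟨rfl, rfl⟩
  exact absurd hxy (not_le.2 hf)

theorem lg_mem_Rad [Finite F] {α : Type*} [LinearOrder α] {f : Fin n → α} {i : Fin n} (h : i < i.rev)
    {c : F} (hc : σ c = -c) (hf : f i < f i.rev) : lg h.ne c ∈ Rad σ f := by
  refine ⟨lg_mem σ h.ne hc, fun x y hxy => ?_⟩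
  rw [lg, SLUpper.x, SpecialLinearGroup.transvection_coe, Matrix.add_apply, single_off hf _ hxy,
    add_zero]

theorem sh_mem_Rad [Finite F] {α : Type*} [LinearOrder α] {f : Fin n → α} (hσ : ∀ x : F, σ (σ x) = x)
    {i j : Fin n} (h : i ≠ j) (hi : i ≠ i.rev) (hj : j ≠ j.rev) (t : F) (hf : f i < f j)
    (hf' : f j.rev < f i.rev) : sh σ h t ∈ Rad σ f := by
  refine ⟨sh_mem σ hσ h hi hj t, fun x y hxy => ?_⟩
  rw [sh_val σ h hj, Matrix.add_apply, Matrix.add_apply, single_off hf _ hxy, single_off hf' _ hxy,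
    add_zero, add_zero]

theorem md_mem_Rad [Finite F] {α : Type*} [LinearOrder α] {f : Fin n → α} (hσ : ∀ x : F, σ (σ x) = x)
    {i k : Fin n} (hk : k.rev = k) (h : i < k) {t s : F} (hs : s + σ s + t * σ t = 0)
    (hf : f i < f k) (hf' : f k < f i.rev) :
    md σ (low_of_lt_mid hk h).ne h.ne (lt_rev_of_lt_mid hk h).ne t s ∈ Rad σ f := by
  refine ⟨md_mem σ hσ _ _ _ hk hs, fun x y hxy => ?_⟩
  rw [md_val, Matrix.add_apply, Matrix.add_apply, Matrix.add_apply, single_off hf _ hxy,
    single_off hf' _ hxy, single_off (hf.trans hf') _ hxy, add_zero, add_zero, add_zero]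

theorem cent_R1 [Finite F] (hG : Good σ κ τ θ) (hn : 4 ≤ n) {g : Γ} (hgG : g ∈ Ga n σ)
    (h : ∀ r ∈ Rad σ (f1 (n := n)), g * r = r * g) :
    ∃ (a : F) (z : Γ), (z : M) = a • (1 : M) ∧ z ∈ Ga n σ ∧ z * g ∈ Rad σ (f1 (n := n)) := by
  have hflow : ∀ x : Fin n, x < x.rev → f1 x = 0 := fun x hx => by simp [f1, hx]
  have hfhigh : ∀ x : Fin n, x.rev < x → f1 x = 2 := fun x hx => by
    simp [f1, lt_asymm hx, hx.ne']
  have hfmid : ∀ x : Fin n, x = x.rev → f1 x = 1 := fun x hx => by
    simp [f1, ← hx]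
  have hl : ∀ i : Fin n, i < i.rev → g i i = g i.rev i.rev ∧ (∀ x, x ≠ i → g x i = 0) ∧
      ∀ y, y ≠ i.rev → g i.rev y = 0 := fun i hi =>
    lg_comm hi.ne hG.ne (h _ (lg_mem_Rad hi hG.skew (by
      rw [hflow i hi, hfhigh i.rev (by rw [Fin.rev_rev]; exact hi)]; norm_num)))
  set i0 : Fin n := ⟨0, by omega⟩
  have h0 : i0 < i0.rev := by rw [Fin.lt_def, Fin.val_rev]; simp [i0]; omega
  set a := (g : M) i0 i0
  have hd : ∀ i : Fin n, i < i.rev → (g : M) i i = a := by
    intro i hi
    by_cases hi0 : i = i0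
    · rw [hi0]
    have hj : i.rev ≠ i.rev.rev := by rw [Fin.rev_rev]; exact hi.ne'
    have hne : i0 ≠ i.rev := fun e => by
      have := Fin.rev_rev i ▸ (e ▸ h0 : i.rev < i.rev.rev)
      exact lt_asymm hi this
    have hne2 : i.rev ≠ i0.rev := Fin.rev_injective.ne hi0
    have e := sh_comm σ hne hj (h _ (sh_mem_Rad hG.inv hne h0.ne hj 1
      (by rw [hflow i0 h0, hfhigh i.rev (by rw [Fin.rev_rev]; exact hi)]; norm_num)
      (by rw [Fin.rev_rev, hflow i hi, hfhigh i0.rev (by rw [Fin.rev_rev]; exact h0)]; norm_num))) i0 i.rev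
    have hne3 : i0 ≠ i := Ne.symm hi0
    simp [hne2, hne3] at e
    rw [(hl i hi).1, ← e]
  have hk : ∀ k : Fin n, k = k.rev → (g : M) k k = a := by
    intro k hk
    have h0k : i0 < k := by
      have := congrArg Fin.val hk
      rw [Fin.val_rev] at this
      rw [Fin.lt_def]; simp [i0]; omega
    have e := md_comm σ h0.ne h0k.ne (lt_rev_of_lt_mid hk.symm h0k).ne (h _
      (md_mem_Rad hG.inv hk.symm h0k (hG.cond 1)
      (by rw [hflow i0 h0, hfmid k hk]; norm_num)
      (by rw [hfhigh i0.rev (by rw [Fin.rev_rev]; exact h0), hfmid k hk]; norm_num))) i0 k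
    have hk0 : k ≠ i0.rev := (lt_rev_of_lt_mid hk.symm h0k).ne
    simp [hk0, h0k.ne, (hl i0 h0).2.2 k hk0] at e
    exact e.symm
  have key : ∀ x y, f1 y ≤ f1 x → (g : M) x y = a * (1 : M) x y := by
    intro x y hxy
    by_cases hxy' : x = y
    · subst hxy'
      rw [Matrix.one_apply_eq, mul_one]
      rcases lt_trichotomy x x.rev with hx | hx | hx
      · exact hd x hx
      · exact hk x hx
      · rw [← Fin.rev_rev x, ← (hl x.rev (by rw [Fin.rev_rev]; exact hx)).1,
          hd x.rev (by rw [Fin.rev_rev]; exact hx)]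
    rw [Matrix.one_apply_ne hxy', mul_zero]
    rcases lt_trichotomy y y.rev with hy | hy | hy
    · exact (hl y hy).2.1 x hxy'
    all_goals
      rcases lt_trichotomy x x.rev with hx | hx | hx
      · rw [hflow x hx] at hxy
        first | (rw [hfmid y hy] at hxy; omega) | (rw [hfhigh y hy] at hxy; omega)
      · first
          | (exfalso
             have e1 := congrArg Fin.val hx
             have e2 := congrArg Fin.val hy
             rw [Fin.val_rev] at e1 e2
             exact hxy' (Fin.ext (by omega)))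
          | (rw [hfmid x hx, hfhigh y hy] at hxy; omega)
      · have := (hl x.rev (by rw [Fin.rev_rev]; exact hx)).2.2 y (by rw [Fin.rev_rev]; exact Ne.symm hxy')
        rwa [Fin.rev_rev] at this
  exact ⟨_, exists_scalar f1_mono (by omega) hgG key⟩

theorem cent_R2 [Finite F] (hG : Good σ κ τ θ) (hn : 4 ≤ n) {l : Fin n} (hl' : l.1 + 1 = n / 2) {g : Γ}
    (hgG : g ∈ Ga n σ) (h : ∀ r ∈ Rad σ (f2 l), g * r = r * g) :
    ∃ (a : F) (z : Γ), (z : M) = a • (1 : M) ∧ z ∈ Ga n σ ∧ z * g ∈ Rad σ (f2 l) := by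
  have hll : l < l.rev := by rw [Fin.lt_def, Fin.val_rev]; omega
  have hlow : ∀ i : Fin n, i < l → i < i.rev := fun i hi => by
    rw [Fin.lt_def] at hi; rw [Fin.lt_def, Fin.val_rev]; omega
  have hL : ∀ i : Fin n, i < l → g i i = g i.rev i.rev ∧ (∀ x, x ≠ i → g x i = 0) ∧
      ∀ y, y ≠ i.rev → g i.rev y = 0 := fun i hi =>
    lg_comm (hlow i hi).ne hG.ne (h _ (lg_mem_Rad (hlow i hi) hG.skew (by
      simp only [f2, Fin.lt_def, Fin.le_def, Fin.val_rev]
      rw [Fin.lt_def] at hi
      split_ifs <;> omega)))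
  set i0 : Fin n := ⟨0, by omega⟩
  have h0l : i0 < l := by rw [Fin.lt_def]; simp [i0]; omega
  have h0 := hlow i0 h0l
  set a := (g : M) i0 i0
  have hlast : ∀ i : Fin n, i < l → (∀ y, y ≠ i.rev → y ≠ l → (g : M) l y = 0) ∧
      (∀ y, y ≠ i.rev → y ≠ l.rev → (g : M) l.rev y = 0) ∧
      (g : M) i i = g l l ∧ (g : M) i i = g l.rev l.rev := by
    intro i hi
    have hi1 : i ≠ l.rev := (hi.trans hll).ne
    have hi2 : l ≠ i.rev := ((hll.trans (Fin.rev_lt_rev.2 hi))).ne
    have e1 := sh_comm σ hi.ne hll.ne (h _ (sh_mem_Rad hG.inv hi.ne (hlow i hi).ne hll.ne 1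
      (by simp only [f2, Fin.lt_def, Fin.le_def, Fin.val_rev]; rw [Fin.lt_def] at hi; split_ifs <;> omega)
      (by simp only [f2, Fin.lt_def, Fin.le_def, Fin.val_rev]; rw [Fin.lt_def] at hi; split_ifs <;> omega))) i
    have hll' : l.rev ≠ l.rev.rev := by rw [Fin.rev_rev]; exact hll.ne'
    have e2 := sh_comm σ hi1 hll' (h _ (sh_mem_Rad hG.inv hi1 (hlow i hi).ne hll' 1
      (by simp only [f2, Fin.lt_def, Fin.le_def, Fin.val_rev]; rw [Fin.lt_def] at hi; split_ifs <;> omega)
      (by simp only [f2, Fin.lt_def, Fin.le_def, Fin.val_rev]; rw [Fin.lt_def] at hi; split_ifs <;> omega))) i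
    refine ⟨fun y hy hy' => ?_, fun y hy hy' => ?_, ?_, ?_⟩
    · have := e1 y
      simp [hy, hy', hi1] at this
      exact this.symm
    · have := e2 y
      simp [hy, hy', hi.ne] at this
      exact this.symm
    · have := e1 l
      simp [hi2, hi1] at this
      exact this
    · have := e2 l.rev
      simp [hi.ne, hi.ne'] at this
      exact this
  obtain ⟨hrl, hrl', hal, hal'⟩ := hlast i0 h0l
  have hda : ∀ i : Fin n, i < l → (g : M) i i = a := fun i hi =>
    (hlast i hi).2.2.1.trans hal.symm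
  have hmid : ∀ k : Fin n, k = k.rev → (g : M) k k = a ∧ ∀ y, y ≠ k → y ≠ i0.rev → (g : M) k y = 0 := by
    intro k hk
    have h0k : i0 < k := by
      have := congrArg Fin.val hk
      rw [Fin.val_rev] at this
      rw [Fin.lt_def]; simp [i0]; omega
    have hk2 := congrArg Fin.val hk
    rw [Fin.val_rev] at hk2
    have e := md_comm σ h0.ne h0k.ne (lt_rev_of_lt_mid hk.symm h0k).ne (h _
      (md_mem_Rad hG.inv hk.symm h0k (hG.cond 1)
        (by simp only [f2, Fin.lt_def, Fin.le_def, Fin.val_rev]; rw [Fin.lt_def] at h0l h0k; split_ifs <;> omega)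
        (by simp only [f2, Fin.lt_def, Fin.le_def, Fin.val_rev]; rw [Fin.lt_def] at h0l h0k; split_ifs <;> omega))) i0
    have hk0 : k ≠ i0.rev := (lt_rev_of_lt_mid hk.symm h0k).ne
    refine ⟨?_, fun y hy hy' => ?_⟩
    · have := e k
      simp [hk0, h0k.ne, (hL i0 h0l).2.2 k hk0] at this
      exact this.symm
    · have := e y
      simp [hy, hy', h0k.ne, (hL i0 h0l).2.2 y hy'] at this
      exact this.symm
  have hcases : ∀ x : Fin n, x < l ∨ x.rev < l ∨ x = l ∨ x = l.rev ∨ x = x.rev := by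
    intro x
    simp only [Fin.lt_def, Fin.ext_iff, Fin.val_rev]
    omega
  have key : ∀ x y, f2 l y ≤ f2 l x → (g : M) x y = a * (1 : M) x y := by
    intro x y hxy
    by_cases hxy' : x = y
    · subst hxy'
      rw [Matrix.one_apply_eq, mul_one]
      rcases hcases x with hx | hx | hx | hx | hx
      · exact hda x hx
      · rw [← Fin.rev_rev x, ← (hL x.rev hx).1, hda x.rev hx]
      · rw [hx, ← hal]
      · rw [hx, ← hal']
      · exact (hmid x hx).1
    rw [Matrix.one_apply_ne hxy', mul_zero]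
    by_cases hy : y < l
    · exact (hL y hy).2.1 x hxy'
    rcases hcases x with hx | hx | hx | hx | hx
    · exfalso
      simp only [f2, Fin.le_def, Fin.lt_def, Fin.val_rev] at hxy hx hy
      split_ifs at hxy <;> omega
    · have := (hL x.rev hx).2.2 y (by rw [Fin.rev_rev]; exact Ne.symm hxy')
      rwa [Fin.rev_rev] at this
    all_goals
      have hy0 : y ≠ i0.rev := by
        intro e
        subst e
        simp only [f2, Fin.le_def, Fin.lt_def, Fin.ext_iff, Fin.val_rev] at hxy hx hy hll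
        simp [i0] at hxy hy
        split_ifs at hxy <;> omega
    · subst hx; exact hrl y hy0 (Ne.symm hxy')
    · subst hx; exact hrl' y hy0 (Ne.symm hxy')
    · exact (hmid x hx).2 y (Ne.symm hxy') hy0
  exact ⟨_, exists_scalar (f2_mono l) (by omega) hgG key⟩

/-- Block triangular together with the inverse. -/
def Para {α : Type*} [LinearOrder α] (f : Fin n → α) : Submonoid Γ where
  carrier := {g | (g : M).BlockTriangular f ∧ ((g⁻¹ : Γ) : M).BlockTriangular f}
  one_mem' := by
    simp only [Set.mem_ofPred_eq, inv_one, Matrix.SpecialLinearGroup.coe_one]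
    exact ⟨blockTriangular_one, blockTriangular_one⟩
  mul_mem' {a b} ha hb := by
    simp only [Set.mem_ofPred_eq, _root_.mul_inv_rev, Matrix.SpecialLinearGroup.coe_mul]
    exact ⟨ha.1.mul hb.1, hb.2.mul ha.2⟩

theorem x_mem_Para {α : Type*} [LinearOrder α] {f : Fin n → α} {i j : Fin n} (h : i ≠ j)
    (hf : f i ≤ f j) (c : F) : (SLUpper.x h c : Γ) ∈ Para f := by
  have : ∀ c : F, ((SLUpper.x h c : Γ) : M).BlockTriangular f := fun c a b hab => by
    rw [SLUpper.x, SpecialLinearGroup.transvection_coe, Matrix.add_apply, Matrix.single_apply,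
      Matrix.one_apply_ne (fun e => absurd (e ▸ hab) (lt_irrefl _)), if_neg, add_zero]
    rintro ⟨rfl, rfl⟩
    exact absurd hab (not_lt.2 hf)
  refine ⟨this c, ?_⟩
  rw [SLUpper.x, SpecialLinearGroup.transvection_inv]
  exact this _

theorem Para_conj [Finite F] {α : Type*} [LinearOrder α] {f : Fin n → α} {g r : Γ} (hgG : g ∈ Ga n σ)
    (hg : g ∈ Para f) (hr : r ∈ Rad σ f) : g * r * g⁻¹ ∈ Rad σ f :=
  conj_mem_Rad σ hgG hg.1 hg.2 hr

/-- Torus parameters. -/
def Tor (n : ℕ) (σ : F →+* F) : Subgroup (Fin n → Fˣ) where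
  carrier := {d | (∀ x, σ (d x.rev : F) * (d x : F) = 1) ∧ ∏ x, (d x : F) = 1}
  one_mem' := ⟨fun x => by simp, by simp⟩
  mul_mem' {a b} ha hb := ⟨fun x => by
      simp only [Pi.mul_apply, Units.val_mul, map_mul]
      calc _ = (σ (a x.rev : F) * (a x : F)) * (σ (b x.rev : F) * (b x : F)) := by ring
        _ = 1 := by rw [ha.1, hb.1, one_mul],
    by simp only [Pi.mul_apply, Units.val_mul, Finset.prod_mul_distrib, ha.2, hb.2, one_mul]⟩
  inv_mem' {a} ha := ⟨fun x => by
      simp only [Pi.inv_apply, Units.val_inv_eq_inv_val, map_inv₀, ← mul_inv, ha.1, inv_one],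
    by simp only [Pi.inv_apply, Units.val_inv_eq_inv_val, Finset.prod_inv_distrib, ha.2, inv_one]⟩

theorem mono_one_val (d : Fin n → F) (hd : (Equiv.Perm.sign (1 : Equiv.Perm (Fin n)) : ℤ) * ∏ l, d l = 1) :
    ((mono 1 d hd : Γ) : M) = Matrix.diagonal d := by
  ext a b
  show (if a = (1 : Equiv.Perm (Fin n)) b then d b else 0) = _
  rcases eq_or_ne a b with rfl | h
  · simp
  · simp [h]

/-- The torus. -/
def tor : Tor n σ →* Γ where
  toFun d := mono 1 (fun x => ((d : Fin n → Fˣ) x : F)) (by rw [map_one]; simpa using d.2.2)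
  map_one' := by
    refine Subtype.ext ?_
    rw [mono_one_val, Matrix.SpecialLinearGroup.coe_one, ← Matrix.diagonal_one]
    simp
  map_mul' d e := by
    refine Subtype.ext ?_
    rw [Matrix.SpecialLinearGroup.coe_mul, mono_one_val, mono_one_val, mono_one_val,
      Matrix.diagonal_mul_diagonal]
    simp

theorem tor_val (d : Tor n σ) :
    ((tor d : Γ) : M) = Matrix.diagonal (fun x => ((d : Fin n → Fˣ) x : F))  :=
  mono_one_val (fun x => ((d : Fin n → Fˣ) x : F)) (by rw [map_one]; simpa using d.2.2)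

theorem tor_mem (d : Tor n σ) : tor d ∈ Ga n σ :=
  mono_mem σ (π := 1) (d := fun x => ((d : Fin n → Fˣ) x : F))
    (hd := by rw [map_one]; simpa using d.2.2) (fun _ => rfl) d.2.1

theorem tor_Para {α : Type*} [LinearOrder α] (f : Fin n → α) (d : Tor n σ) : tor d ∈ Para f := by
  refine ⟨?_, ?_⟩
  · rw [tor_val]; exact blockTriangular_diagonal _
  · rw [← map_inv, tor_val]; exact blockTriangular_diagonal _

theorem decompose_two {i j : Fin n} (h : i ≠ j) {a b : F} (ha : a ≠ 0) (hb : b ≠ 0) :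
    ((SLUpper.x h a * SLUpper.x h.symm (-a⁻¹) * SLUpper.x h a *
      SLUpper.x h b * SLUpper.x h.symm (-b⁻¹) * SLUpper.x h b : Γ) : M) =
      Matrix.diagonal (fun x => if x = i then -a / b else if x = j then -b / a else 1) := by
  simp only [Matrix.SpecialLinearGroup.coe_mul, SLUpper.x, SpecialLinearGroup.transvection_coe]
  simp only [mul_add, add_mul, mul_one, one_mul, Matrix.single_mul_single_same,
    Matrix.single_mul_single_of_ne _ _ _ _ h, Matrix.single_mul_single_of_ne _ _ _ _ h.symm, add_zero]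
  ext k l
  by_cases hk : k = i <;> by_cases hk' : k = j <;> by_cases hl : l = i <;> by_cases hl' : l = j <;>
    first
      | (subst_vars; exact absurd rfl h)
      | (subst_vars
         simp [Matrix.single_apply, Matrix.one_apply, Matrix.diagonal_apply, *, h, h.symm, Ne.symm]
         done)
      | (subst_vars
         simp [Matrix.single_apply, Matrix.diagonal_apply, *, h, h.symm, Ne.symm]
         try field_simp
         try ring)

theorem sh_commute {i j a b : Fin n} (h : i ≠ j) (h' : a ≠ b) (h1 : j ≠ a) (h2 : b ≠ i) (c e : F) :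
    Commute (SLUpper.x h c : Γ) (SLUpper.x h' e) := by
  refine Subtype.ext ?_
  rw [Matrix.SpecialLinearGroup.coe_mul, Matrix.SpecialLinearGroup.coe_mul, SLUpper.x, SLUpper.x,
    SpecialLinearGroup.transvection_coe, SpecialLinearGroup.transvection_coe]
  simp [Matrix.add_mul, Matrix.mul_add, h1, h2]
  abel

/-- Torus elements of the Levi factor as products of short root elements. -/
theorem levi_torus {i l : Fin n} (h : i ≠ l) (hi : i < i.rev) (hl : l < l.rev) {t : F} (ht : t ≠ 0) :
    ((sh σ h t * sh σ h.symm (-t⁻¹) * sh σ h t * sh σ h (-1) * sh σ h.symm 1 * sh σ h (-1) : Γ) : M) =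
      Matrix.diagonal (fun x => if x = i then t else if x = l then t⁻¹ else
        if x = l.rev then σ t else if x = i.rev then (σ t)⁻¹ else 1) := by
  have h1 : i ≠ l.rev := fun e => by subst e; rw [Fin.rev_rev] at hi; exact lt_asymm hi hl
  have h2 : l ≠ i.rev := fun e => h1 (by rw [e, Fin.rev_rev])
  have hst : -σ t ≠ 0 := neg_ne_zero.2 ((map_ne_zero σ).2 ht)
  have c1 : ∀ c e : F, Commute (SLUpper.x (Fin.rev_injective.ne h.symm) c : Γ) (SLUpper.x h e) :=
    fun c e => sh_commute _ _ hi.ne' hl.ne c e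
  have c2 : ∀ c e : F, Commute (SLUpper.x (Fin.rev_injective.ne h) c : Γ) (SLUpper.x h e) :=
    fun c e => sh_commute _ _ h1.symm h2 c e
  have c3 : ∀ c e : F, Commute (SLUpper.x (Fin.rev_injective.ne h.symm) c : Γ) (SLUpper.x h.symm e) :=
    fun c e => sh_commute _ _ h2.symm h1 c e
  have c4 : ∀ c e : F, Commute (SLUpper.x (Fin.rev_injective.ne h) c : Γ) (SLUpper.x h.symm e) :=
    fun c e => sh_commute _ _ hl.ne' hi.ne c e
  have hprod : (sh σ h t * sh σ h.symm (-t⁻¹) * sh σ h t * sh σ h (-1) * sh σ h.symm 1 * sh σ h (-1) : Γ) =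
      (SLUpper.x h t * SLUpper.x h.symm (-t⁻¹) * SLUpper.x h t *
        SLUpper.x h (-1) * SLUpper.x h.symm (-(-1)⁻¹) * SLUpper.x h (-1)) *
      (SLUpper.x (Fin.rev_injective.ne h.symm) (-σ t) * SLUpper.x (Fin.rev_injective.ne h) (-(-σ t)⁻¹) *
        SLUpper.x (Fin.rev_injective.ne h.symm) (-σ t) *
        SLUpper.x (Fin.rev_injective.ne h.symm) 1 * SLUpper.x (Fin.rev_injective.ne h) (-(1 : F)⁻¹) *
        SLUpper.x (Fin.rev_injective.ne h.symm) 1) := by
    simp only [sh, map_neg, map_inv₀, map_one, inv_neg, neg_neg, inv_one]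
    generalize hA : SLUpper.x h t = A
    generalize hB : SLUpper.x h.symm (-t⁻¹) = B
    generalize hC : SLUpper.x h (-1 : F) = C
    generalize hD : SLUpper.x h.symm (1 : F) = D
    generalize hA' : SLUpper.x (Fin.rev_injective.ne h.symm) (-σ t) = A'
    generalize hB' : SLUpper.x (Fin.rev_injective.ne h) (σ t)⁻¹ = B'
    generalize hC' : SLUpper.x (Fin.rev_injective.ne h.symm) (1 : F) = C'
    generalize hD' : SLUpper.x (Fin.rev_injective.ne h) (-1 : F) = D'
    have q1 : Commute A' B := by subst hA' hB; exact c3 _ _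
    have q2 : Commute (A' * B') A := by subst hA' hB' hA; exact (c1 _ _).mul_left (c2 _ _)
    have q3 : Commute (A' * B' * A') C := by
      subst hA' hB' hC; exact ((c1 _ _).mul_left (c2 _ _)).mul_left (c1 _ _)
    have q4 : Commute (A' * B' * A' * C') D := by
      subst hA' hB' hC' hD; exact (((c3 _ _).mul_left (c4 _ _)).mul_left (c3 _ _)).mul_left (c3 _ _)
    have q5 : Commute (A' * B' * A' * C' * D') C := by
      subst hA' hB' hC' hD' hC
      exact ((((c1 _ _).mul_left (c2 _ _)).mul_left (c1 _ _)).mul_left (c1 _ _)).mul_left (c2 _ _)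
    rw [q1.mul_mul_mul_comm, q2.mul_mul_mul_comm, q3.mul_mul_mul_comm, q4.mul_mul_mul_comm,
      q5.mul_mul_mul_comm]
  rw [hprod, Matrix.SpecialLinearGroup.coe_mul, decompose_two h ht (neg_ne_zero.2 one_ne_zero),
    decompose_two _ hst one_ne_zero, Matrix.diagonal_mul_diagonal]
  congr 1
  funext x
  by_cases e1 : x = i
  · subst e1; simp [h, h1, hi.ne]
  by_cases e2 : x = l
  · subst e2; simp [h.symm, h2, hl.ne]
  by_cases e3 : x = l.rev
  · subst e3; simp [h1.symm, hl.ne']
  by_cases e4 : x = i.rev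
  · subst e4; simp [hi.ne', h2.symm, Fin.rev_injective.ne h]
  simp [e1, e2, e3, e4]

/-- The rank-one Weyl element through the middle. -/
theorem middle_weyl {l k : Fin n} (hk : k.rev = k) (hlk : l < k) (hσ : ∀ x : F, σ (σ x) = x)
    {t s : F} (hs : s + σ s + t * σ t = 0) (hs0 : s ≠ 0)
    (hl : l.rev ≠ l.rev.rev) (hl2 : l.rev ≠ k) (hl3 : k ≠ l.rev.rev) :
    ((md σ (low_of_lt_mid hk hlk).ne hlk.ne (lt_rev_of_lt_mid hk hlk).ne t s *
        md σ hl hl2 hl3 (-t / s) (σ s)⁻¹ *
        md σ (low_of_lt_mid hk hlk).ne hlk.ne (lt_rev_of_lt_mid hk hlk).ne (t * σ s / s) s : Γ) : M) =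
      Matrix.of fun x y => if x = Equiv.swap l l.rev y then
        (if y = l then (σ s)⁻¹ else if y = l.rev then s else if y = k then -σ s / s else 1) else 0 := by
  have hss : σ s ≠ 0 := (map_ne_zero σ).2 hs0
  have hkl' := lt_rev_of_lt_mid hk hlk
  have hll := low_of_lt_mid hk hlk
  simp only [Matrix.SpecialLinearGroup.coe_mul, md_val, map_neg, map_div₀, map_mul, hσ, Fin.rev_rev]
  simp [Matrix.add_mul, Matrix.mul_add, hlk.ne, hlk.ne', hkl'.ne, hkl'.ne', hll.ne, hll.ne']
  ext x y
  rcases eq_or_ne y l with rfl | e1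
  · rcases eq_or_ne x y with rfl | f1
    · simp [hlk.ne, hlk.ne', hkl'.ne, hkl'.ne', hll.ne, hll.ne', Matrix.single_apply, Matrix.one_apply]
      field_simp
      linear_combination hs
    rcases eq_or_ne x k with rfl | f2
    · simp [hlk.ne, hlk.ne', hkl'.ne, hkl'.ne', hll.ne, hll.ne', Matrix.single_apply, Matrix.one_apply]
      field_simp
      ring
    rcases eq_or_ne x y.rev with rfl | f3
    · simp [hlk.ne, hlk.ne', hkl'.ne, hkl'.ne', hll.ne, hll.ne', Matrix.single_apply, Matrix.one_apply]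
    simp [hlk.ne, hlk.ne', hkl'.ne, hkl'.ne', hll.ne, hll.ne', Matrix.single_apply, Matrix.one_apply, f1, f1.symm, f2, f2.symm, f3, f3.symm]
  rcases eq_or_ne y k with rfl | e2
  · rcases eq_or_ne x l with rfl | f1
    · simp [Equiv.swap_apply_of_ne_of_ne, hlk.ne, hlk.ne', hkl'.ne, hkl'.ne', hll.ne, hll.ne', Matrix.single_apply, Matrix.one_apply]
      field_simp
      linear_combination t * hs
    rcases eq_or_ne x y with rfl | f2
    · simp [Equiv.swap_apply_of_ne_of_ne, hlk.ne, hlk.ne', hkl'.ne, hkl'.ne', hll.ne, hll.ne', Matrix.single_apply, Matrix.one_apply]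
      field_simp
      linear_combination hs
    rcases eq_or_ne x l.rev with rfl | f3
    · simp [Equiv.swap_apply_of_ne_of_ne, hlk.ne, hlk.ne', hkl'.ne, hkl'.ne', hll.ne, hll.ne', Matrix.single_apply, Matrix.one_apply]
      field_simp
      ring
    simp [Equiv.swap_apply_of_ne_of_ne, hlk.ne, hlk.ne', hkl'.ne, hkl'.ne', hll.ne, hll.ne', Matrix.single_apply, Matrix.one_apply, f1, f1.symm, f2, f2.symm, f3, f3.symm]
  rcases eq_or_ne y l.rev with rfl | e3
  · rcases eq_or_ne x l with rfl | f1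
    · simp [hlk.ne, hlk.ne', hkl'.ne, hkl'.ne', hll.ne, hll.ne', Matrix.single_apply, Matrix.one_apply]
      field_simp
      linear_combination s * hs
    rcases eq_or_ne x k with rfl | f2
    · simp [hlk.ne, hlk.ne', hkl'.ne, hkl'.ne', hll.ne, hll.ne', Matrix.single_apply, Matrix.one_apply]
      field_simp
      linear_combination -(σ t) * hs
    rcases eq_or_ne x l.rev with rfl | f3
    · simp [hlk.ne, hlk.ne', hkl'.ne, hkl'.ne', hll.ne, hll.ne', Matrix.single_apply, Matrix.one_apply]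
      field_simp
      linear_combination hs
    simp [hlk.ne, hlk.ne', hkl'.ne, hkl'.ne', hll.ne, hll.ne', Matrix.single_apply, Matrix.one_apply, f1, f1.symm, f2, f2.symm, f3, f3.symm]
  simp [Matrix.one_apply, Equiv.swap_apply_of_ne_of_ne, Matrix.single_apply, e1, e1.symm, e2, e2.symm, e3, e3.symm]

theorem md_pow (p : ℕ) [Fact p.Prime] [CharP F p] {i k : Fin n} (hi : i ≠ i.rev) (hik : i ≠ k)
    (hk' : k ≠ i.rev) (t s : F) : md σ hi hik hk' t s ^ p ^ 2 = 1 := by
  refine Subtype.ext ?_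
  rw [Matrix.SpecialLinearGroup.coe_pow, md_val, Matrix.SpecialLinearGroup.coe_one]
  set N : M := single i k t + single k i.rev (-σ t) + single i i.rev s with hN
  have : Nonempty (Fin n) := ⟨i⟩
  have hchar : CharP M p := inferInstance
  rw [add_pow_char_pow_of_commute p 2 (Commute.one_left _), one_pow]
  have h3 : N ^ 3 = 0 := by
    rw [pow_succ, pow_two, hN]
    simp [Matrix.add_mul, Matrix.mul_add, hi.symm, hik.symm, hk'.symm]
  have h4 : 3 ≤ p ^ 2 := by
    calc 3 ≤ 2 ^ 2 := by norm_num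
      _ ≤ p ^ 2 := Nat.pow_le_pow_left (Fact.out : p.Prime).two_le 2
  rw [pow_eq_zero_of_le h4 h3, add_zero]

theorem sh_pow (p : ℕ) [Fact p.Prime] [CharP F p] {i j : Fin n} (h : i ≠ j) (hi : i ≠ i.rev)
    (hj : j ≠ j.rev) (t : F) : sh σ h t ^ p = 1 := by
  rw [sh, (sh_commute h _ hj hi.symm _ _).mul_pow, SLUpper.x_pow p, SLUpper.x_pow p, one_mul]

end Cfsg.Agent.Lib.GS.SuBorel
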